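import Cfsg.Agent.H3.AM1

/-! S5586: commuting actions of orders 23 and 3 on a 2-group; quadratic residue idempotents. -/

set_option autoImplicit false
set_option linter.unusedSectionVars false

namespace H2.AM
open Cfsg H15 H19 H0 H0.Mo H0.Y Subgroup Function H7.AM
open scoped commutatorElement

universe u

/-- residues and non-residues modulo 23 -/
def qr (b : Bool) : List ℕ := if b then [1, 2, 3, 4, 6, 8, 9, 12, 13, 16, 18] else [5, 7, 10, 11, 14, 15, 17, 19, 20, 21, 22]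

def tt {S : Type*} [Semiring S] (l : List ℕ) (a : S) : S := (l.map (a ^ ·)).sum

def th {G : Type*} [Group G] (l : List ℕ) (g x : G) : G := (l.map fun r => g ^ r * x * (g ^ r)⁻¹).prod

section
variable {S : Type*} [Ring S] {a : S}

theorem tt_cons (r : ℕ) (l : List ℕ) : tt (r :: l) a = a ^ r + tt l a := rfl

open Polynomial in
theorem tt_id (h : a ^ 23 = 1) (b : Bool) : tt (qr !b) a * tt (qr b) a = 11 + 5 * tt (qr b) a + 5 * tt (qr !b) a ∧
    tt (qr !b) a * tt (qr b) a * (a - 1) = 6 * (a - 1) := by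
  have m : ∀ l, aeval a (tt l (X : ℤ[X])) = tt l a := fun l => by simp [tt, map_list_sum, comp_def]
  have e : tt (qr !b) (X : ℤ[X]) * tt (qr b) X = 11 + 5 * tt (qr b) X + 5 * tt (qr !b) X + (X ^ 23 - 1) *
      (11 + 5 * X + 5 * X ^ 2 + 5 * X ^ 3 + 5 * X ^ 4 + 5 * X ^ 5 + 4 * X ^ 6 + 4 * X ^ 7 + 3 * X ^ 8 + 3 * X ^ 9 + 4 * X ^ 10 +
        2 * X ^ 11 + 3 * X ^ 12 + X ^ 13 + 2 * X ^ 14 + 2 * X ^ 15 + X ^ 16 + X ^ 17) := by
    cases b <;> simp [tt, qr] <;> ring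
  have e' : (11 + 5 * tt (qr b) X + 5 * tt (qr !b) X) * (X - 1 : ℤ[X]) = 6 * (X - 1) + (X ^ 23 - 1) * 5 := by
    cases b <;> simp [tt, qr] <;> ring
  have e := congrArg (aeval a) e
  have e' := congrArg (aeval a) e'
  simp only [map_mul, map_add, map_sub, map_pow, aeval_X, m, h, map_one, sub_self, zero_mul, add_zero, map_ofNat] at e e'
  exact ⟨e, by rw [e, e']⟩

theorem tt_adj (h : a ^ 23 = 1) (b : Bool) : tt (qr b) (a ^ 22) = tt (qr !b) a := by
  have : tt (qr b) (a ^ 22) = tt ((qr b).map (22 * · % 23)) a := by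
    simp only [tt, List.map_map, comp_def, ← pow_mul, ← pow_eq_pow_mod _ h]
  rw [this]
  exact (List.Perm.map _ (by cases b <;> decide)).sum_eq

theorem tt_cm {d : S} (h : Commute d a) (l : List ℕ) : Commute d (tt l a) :=
  Commute.list_sum_right _ _ fun _ m => let ⟨r, _, e⟩ := List.mem_map.1 m; e ▸ h.pow_right r

end

theorem fp_mod {α : Type*} [Finite α] {p : ℕ} (hp : p.Prime) {f : α → α} {S : Set α} (m : Set.MapsTo f S S)
    (h : ∀ x ∈ S, f^[p] x = x) : Nat.card S % p = Nat.card {x // x ∈ S ∧ f x = x} % p := by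
  classical
  have := Fact.mk hp
  have := Fintype.ofFinite S
  have e := Equiv.Perm.card_fixedPoints_modEq (f := m.restrict) (p := p) (n := 1) (by
    rw [pow_one]; exact funext fun x => Subtype.ext ((m.coe_iterate_restrict x p).trans (h _ x.2)))
  rw [← Nat.card_eq_fintype_card, ← Nat.card_eq_fintype_card] at e
  exact e.trans (congrArg (· % p) (Nat.card_congr
    ⟨fun x => ⟨x.1.1, x.1.2, congrArg Subtype.val x.2⟩, fun x => ⟨⟨x, x.2.1⟩, Subtype.ext x.2.2⟩, fun _ => rfl, fun _ => rfl⟩))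

theorem core {E : Type*} [AddCommGroup E] [Module (ZMod 2) E] [Finite E] {a d : Module.End (ZMod 2) E} (c : Commute d a)
    (a23 : a ^ 23 = 1) (d3 : d ^ 3 = 1) (fp : ∀ w, d w = w → w = 0) (a1 : a ≠ 1) :
    ∃ b, 2 ^ 22 ≤ Nat.card (LinearMap.ker (tt (qr b) a)) := by
  have two : ∀ w : E, w + w = 0 := fun w => by rw [← two_smul (ZMod 2)]; exact zero_smul _ w
  obtain ⟨b, w, w1, w0⟩ : ∃ b w, tt (qr b) a w = 0 ∧ w ≠ 0 := by
    obtain ⟨w, hw⟩ := DFunLike.ne_iff.1 a1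
    by_cases e : tt (qr true) a ((a - 1) w) = 0
    · exact ⟨_, _, e, sub_ne_zero.2 hw⟩
    refine ⟨!true, _, (LinearMap.congr_fun (tt_id a23 true).2 w).trans ?_, e⟩
    rw [show (6 : Module.End (ZMod 2) E) = 3 + 3 by norm_num, add_mul, LinearMap.add_apply, two]
  have k : ∀ {x : Module.End (ZMod 2) E} {p}, p.Prime → Commute x a → x ^ p = 1 →
      (∀ w, tt (qr b) a w = 0 → x w = w → w = 0) → Nat.card (LinearMap.ker (tt (qr b) a)) % p = 1 % p := fun {x p} hp c e u =>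
    (fp_mod hp (f := x) (S := LinearMap.ker (tt (qr b) a)) (fun w m => (LinearMap.congr_fun (tt_cm c _).eq w).symm.trans (by
      rw [Module.End.mul_apply, show tt (qr b) a w = 0 from m, map_zero])) fun w _ => by
        rw [← Module.End.pow_apply, e]; rfl).trans (congrArg (· % p) (Nat.card_eq_one_iff_exists.2
          ⟨⟨0, zero_mem _, map_zero x⟩, fun w => Subtype.ext (u _ w.2.1 w.2.2)⟩))
  have k3 := k (by norm_num : Nat.Prime 3) c d3 fun w _ => fp w
  have k23 := k (by norm_num : Nat.Prime 23) (.refl a) a23 fun w h e => by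
    have : ∀ l, tt l a w = l.length • w := fun l => by
      induction l with
      | nil => simp [tt]
      | cons r l ih => rw [tt_cons, LinearMap.add_apply, ih, Module.End.pow_apply, iterate_fixed e, List.length_cons, succ_nsmul']
    rw [this, show (qr b).length = 5 * 2 + 1 by cases b <;> rfl, succ_nsmul, mul_nsmul, two_nsmul, two, zero_add] at h
    exact h
  refine ⟨b, ?_⟩
  have : Nontrivial (LinearMap.ker (tt (qr b) a)) := ⟨⟨w, w1⟩, 0, fun e => w0 (congrArg Subtype.val e)⟩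
  have n1 := Finite.one_lt_card (α := LinearMap.ker (tt (qr b) a))
  rw [Module.natCard_eq_pow_finrank (K := ZMod 2), Nat.card_zmod] at *
  generalize Module.finrank (ZMod 2) (LinearMap.ker (tt (qr b) a)) = n at *
  refine Nat.pow_le_pow_right two_pos (not_lt.1 fun l => ?_)
  interval_cases n <;> simp at k3 k23 n1

section
variable {G : Type u} [Group G] {X : Subgroup G} {g x : G} {δ : G → G}

/-- the subgroup generated by the squares -/
def Sq (X : Subgroup G) : Subgroup G := closure {y | ∃ x ∈ X, y = x * x}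

theorem Sq_le {Y : Subgroup G} : Sq X ≤ Y ↔ ∀ x ∈ X, x * x ∈ Y :=
  (closure_le _).trans ⟨fun h x a => h ⟨x, a, rfl⟩, fun h _ ⟨x, a, e⟩ => e ▸ h x a⟩
theorem sq_Sq (h : x ∈ X) : x * x ∈ Sq X := Sq_le.1 le_rfl x h
theorem Sq_self : Sq X ≤ X := Sq_le.2 fun _ h => mul_mem h h

theorem au_Sq (h : Au X δ) (a : x ∈ Sq X) : δ x ∈ Sq X := by
  induction a using closure_induction with
  | mem y a => obtain ⟨x, a, rfl⟩ := a; rw [h.mul _ a _ a]; exact sq_Sq (h.mem _ a)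
  | one => rw [h.one]; exact one_mem _
  | mul y z a b c d => rw [h.mul _ (Sq_self a) _ (Sq_self b)]; exact mul_mem c d
  | inv y a b => rw [h.inv (Sq_self a)]; exact inv_mem b

theorem th_cons (r : ℕ) (l : List ℕ) : th (r :: l) g x = g ^ r * x * (g ^ r)⁻¹ * th l g x := rfl

theorem th_mem (n : g ∈ N(X)) (h : x ∈ X) : ∀ l, th l g x ∈ X
  | [] => one_mem _
  | r :: l => mul_mem (conj_mem_of_norm (pow_mem n r) h) (th_mem n h l)

theorem th_fix (h : g * x = x * g) : ∀ l, th l g x = x ^ l.length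
  | [] => (pow_zero x).symm
  | r :: l => by rw [th_cons, th_fix h l, ((show Commute g x from h).pow_left r).eq, mul_inv_cancel_right, List.length_cons, pow_succ']

theorem th_inv (h : g * x = x * g) (e : x * x = 1) (b : Bool) : th (qr b) g x = x := by
  rw [th_fix h, show (qr b).length = 2 * 5 + 1 by cases b <;> rfl, pow_succ, pow_mul, pow_two, e, one_pow, one_mul]

theorem big [Finite G] (T : Tw X g δ) : (∀ x ∈ X, x⁻¹ * δ x ∈ Sq X → x ∈ Sq X) ∧ ((∀ x ∈ X, g * x * g⁻¹ * x⁻¹ ∈ Sq X) ∨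
    ∃ b, ∃ K ≤ X, #(Sq X) * 2 ^ 22 ≤ #K ∧ ∀ x ∈ K, th (qr b) g x ∈ Sq X) := by
  obtain ⟨E, _, _, π, ρ, s⟩ := exists_sec (p := 2) (V := X) (W := Sq X) (D := N(X)) Sq_self le_rfl
    (fun n hn => mem_normalizer_fintype fun y hy => au_Sq (δ := cn n)
      ⟨fun _ => conj_mem_of_norm hn, fun _ _ _ _ => conj_mul.symm, fun _ _ => conj_eq_one_iff.1⟩ hy)
    (commutator_le.2 fun a ha b hb => by
      rw [show ⁅a, b⁆ = a * a * (a⁻¹ * b * (a⁻¹ * b)) * (b⁻¹ * b⁻¹) by rw [commutatorElement_def]; group]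
      exact mul_mem (mul_mem (sq_Sq ha) (sq_Sq (mul_mem (inv_mem ha) hb))) (sq_Sq (inv_mem hb)))
    fun x h => pow_two x ▸ sq_Sq h
  have := s.finite
  choose σ σ1 σ2 using s.surj
  have k : ∀ x ∈ X, π (δ (σ (π x))) = π (δ x) := fun x h => by
    rw [s.eq_iff (T.au.mem _ (σ1 _)) (T.au.mem _ h), ← T.au.inv h, ← T.au.mul _ (σ1 _) _ (inv_mem h)]
    exact au_Sq T.au ((s.eq_iff (σ1 _) h).1 (σ2 _))
  obtain ⟨d, hd⟩ : ∃ d : Module.End (ZMod 2) E, ∀ x ∈ X, d (π x) = π (δ x) :=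
    ⟨(AddMonoidHom.mk' (fun e => π (δ (σ e))) fun a b => by
      rw [← s.add _ (T.au.mem _ (σ1 a)) _ (T.au.mem _ (σ1 b)), ← T.au.mul _ (σ1 a) _ (σ1 b), ← k _ (mul_mem (σ1 a) (σ1 b)),
        s.add _ (σ1 a) _ (σ1 b), σ2, σ2]).toZModLinearMap 2, k⟩
  have fp : ∀ w, d w = w → w = 0 := fun w e => by
    refine (Finite.injective_iff_surjective (f := (d - 1 :))).2 (fun v => ?_) (by simp [e])
    have l : XX X δ ≤ s.grp (LinearMap.range (d - 1)) := (closure_le _).2 fun _ ⟨r, a, e⟩ => e ▸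
      ⟨mul_mem (inv_mem a) (T.au.mem _ a), π r, by
        rw [s.add _ (inv_mem a) _ (T.au.mem _ a), s.inv a, ← hd r a, neg_add_eq_sub]; rfl⟩
    exact σ2 v ▸ (l (T.gen.ge (σ1 v))).2
  refine ⟨fun x h e => (s.ker x h).1 (fp _ ?_), ?_⟩
  · rwa [← s.ker _ (mul_mem (inv_mem h) (T.au.mem _ h)), s.add _ (inv_mem h) _ (T.au.mem _ h), s.inv h, neg_add_eq_zero,
      eq_comm, ← hd x h] at e
  by_cases a1 : ρ ⟨g, T.gX⟩ = 1
  · exact .inl fun x h => (s.comm_mem (g := ⟨g, T.gX⟩) h).2 (by rw [a1]; rfl)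
  obtain ⟨b, c⟩ := core (d := d) (LinearMap.ext fun v => by
      rw [← σ2 v, Module.End.mul_apply, Module.End.mul_apply, ← s.conj _ _ (σ1 v), hd _ (conj_mem_of_norm T.gX (σ1 v)),
        hd _ (σ1 v), ← s.conj _ _ (T.au.mem _ (σ1 v)), T.cm _ (σ1 v)])
    (by rw [← map_pow, show (⟨g, T.gX⟩ : N(X)) ^ 23 = 1 from Subtype.ext T.g23, map_one])
    (LinearMap.ext fun v => by
      rw [← σ2 v, pow_three, Module.End.mul_apply, Module.End.mul_apply, hd _ (σ1 v), hd _ (T.au.mem _ (σ1 v)),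
        hd _ (T.au.mem _ (T.au.mem _ (σ1 v))), T.d3 _ (σ1 v)]; rfl) fp a1
  refine .inr ⟨b, s.grp (LinearMap.ker (tt (qr b) (ρ ⟨g, T.gX⟩))), s.grp_le _, ?_, fun x h => (s.ker _ (th_mem T.gX h.1 _)).1 ?_⟩
  · rw [← card_mul_relIndex (s.le_grp _), s.relIndex_grp]; exact Nat.mul_le_mul_left _ c
  refine .trans ?_ h.2
  induction qr b with
  | nil => exact s.one
  | cons r l ih =>
    rw [th_cons, s.add _ (conj_mem_of_norm (pow_mem T.gX r) h.1) _ (th_mem T.gX h.1 l), ih, tt_cons, ← map_pow]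
    exact congrArg (· + _) (s.conj (⟨g, T.gX⟩ ^ r) x h.1)

end

/-- the action on the lattice -/
def ι : Co0 →* AddMonoid.End Lam := ⟨⟨coHom, AddMonoidHom.ext (one_smul Co0)⟩, fun a b => AddMonoidHom.ext (mul_smul a b)⟩

theorem tt_app (r : ℕ) (l : List ℕ) (γ : Co0) (v : Lam) : tt (r :: l) (ι γ) v = γ ^ r • v + tt l (ι γ) v := by
  rw [tt_cons, ← map_pow]; rfl

theorem cg_adj {γ : Co0} {v : Lam} {b : Bool} (h : γ ^ 23 = 1) (c : Cg (tt (qr b) (ι γ) v) 0) : Cg (tt (qr b) (ι γ⁻¹) v) v := by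
  have a : ι γ ^ 23 = 1 := by rw [← map_pow, h, map_one]
  obtain ⟨u, e⟩ := c
  have k : tt (qr !b) (ι γ) (tt (qr b) (ι γ) v) = 11 • v + 5 • tt (qr b) (ι γ) v + 5 • tt (qr !b) (ι γ) v :=
    DFunLike.congr_fun (tt_id a b).1 v
  rw [show γ⁻¹ = γ ^ 22 from inv_eq_of_mul_eq_one_right (by rw [← pow_succ', h]), map_pow, tt_adj a]
  rw [sub_zero] at e
  rw [e, map_nsmul] at k
  refine ⟨tt (qr !b) (ι γ) u - 6 • v - 5 • u - 2 • tt (qr !b) (ι γ) v, ?_⟩
  rw [smul_sub, smul_sub, smul_sub, k]; abel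

theorem dot_adj (γ : Co0) (u v : Lam) : ∀ l, dotInt (cf (tt l (ι γ) u)) (cf v) = dotInt (cf u) (cf (tt l (ι γ⁻¹) v))
  | [] => (dotInt_zero_left _).trans ((dotInt_comm _ _).trans (dotInt_zero_left _)).symm
  | r :: l => by
    rw [tt_app, tt_app]
    refine (dotInt_add_left _ _ _).trans (.trans ?_ (dotInt_add_right _ _ _).symm)
    exact congrArg₂ _ (by rw [← co_dot (γ ^ r) u, inv_pow, smul_inv_smul]) (dot_adj γ u v l)

theorem dot_cg {u v w : Lam} (c : Cg v w) : 16 ∣ dotInt (cf u) (cf v) - dotInt (cf u) (cf w) := by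
  obtain ⟨t, e⟩ := c
  rw [← dotInt_sub_right, show cf v - cf w = cf t + cf t from congrArg cf (e.trans (two_smul _ _)), dotInt_add_right]
  have : 8 ∣ dotInt (cf u) (cf t) := leech_dot u.2 t.2
  omega

theorem in_NN {γ : Co0} (h : γ ^ 23 = 1) : ∃ k, k * γ * k⁻¹ ∈ NN := by
  have : Finite Co0 := Nat.finite_of_card_ne_zero (by rw [card_Co0]; decide)
  obtain ⟨P, s⟩ := exists_syl 23 NN
  have i := NN.card_mul_index
  rw [card_NN, card_Co0] at i
  obtain ⟨k, -, e⟩ := (syl_mk le_top s.pi (by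
    rw [relIndex_top_right, ← relIndex_mul_index s.le, show NN.index = 8292375 by omega]
    exact (by norm_num : Nat.Prime 23).not_dvd_mul (s.not_dvd (by norm_num)) (by norm_num))).scj_le (K := zpowers γ) le_top
      (PiN.dvd ((piN_prime (by norm_num)).2 rfl) (by rw [Nat.card_zpowers]; exact orderOf_dvd_of_pow_eq_one h))
  exact ⟨k, s.le (e (conj_mem_cj.2 (mem_zpowers γ)))⟩

theorem four {G : Type u} [Group G] [Finite G] {P : Subgroup G} {z u v : G} (E : ES P z) (c : #P = 8) (hu : u ∈ P) (hv : v ∈ P)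
    (n : u ∉ zpowers z) (e : v * u = u * v) : v = 1 ∨ v = z ∨ v = u ∨ v = u * z := by
  obtain ⟨y, y1, y2⟩ := E.exists_not_comm hu n
  have l := card_lt (lt_of_le_of_ne inf_le_left fun e => y2 (mem_cent1.1 (e.ge y1).2).symm : P ⊓ C[u] < P)
  have d := card_dvd (inf_le_left : P ⊓ C[u] ≤ P)
  rw [E.mem_zp, not_or] at n
  have := Set.eq_of_subset_of_ncard_le (s := {1, z, u, u * z}) (t := (P ⊓ C[u] :)) (by
    rintro _ (rfl | rfl | rfl | rfl)
    exacts [one_mem _, ⟨E.zQ, mem_cent1.2 (E.cent _ hu).symm⟩, ⟨hu, mem_cent1.2 rfl⟩,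
      ⟨mul_mem hu E.zQ, mem_cent1.2 (by rw [mul_assoc, E.cent _ hu])⟩]) (by
    rw [Set.ncard_insert_of_notMem (by simp [E.z1.symm, Ne.symm n.1, eq_comm, mul_eq_one_iff_eq_inv, E.zinv, Ne.symm n.2]),
      Set.ncard_insert_of_notMem (by simp [Ne.symm n.2, n.1]), Set.ncard_pair (by simp [E.z1])]
    change #(P ⊓ C[u]) ≤ 4
    rw [c] at l d
    have := Nat.le_of_dvd (by decide) d
    generalize #(P ⊓ C[u]) = m at *
    interval_cases m <;> omega)
  exact this.ge ⟨hv, mem_cent1.2 e⟩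

section
variable {G : Type u} [Group G] [Finite G] {Q X : Subgroup G} {z g x y : G} {f : C[z] →* Spor.Co1}
  {R : G → Lam → Prop} {γ e : Co0} {v : Lam}

theorem A_th (a : A f g γ) (b : A f x e) : ∀ l, A f (th l g x) (th l γ e)
  | [] => .one (one_mem _)
  | r :: l => (((a.pow r).mul b).mul (a.pow r).inv).mul (A_th a b l)

theorem lift23 (h : g ∈ C[z]) (e : g ^ 23 = 1) : ∃ γ, A f g γ ∧ γ ^ 23 = 1 := by
  obtain ⟨γ, a⟩ := A.tot (f := f) h
  have := EE_sq (center_le_EE (A.cen (e ▸ a.pow 23)))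
  refine ⟨γ ^ 24, by simpa [pow_succ g 23, e] using a.pow 24, ?_⟩
  rw [← pow_mul, show 24 * 23 = 23 * 2 * 12 from rfl, pow_mul, pow_mul, pow_two, this, one_pow]

variable (M : MT Q z f R)
include M

theorem R_th (a : A f g γ) (b : R x v) : ∀ l, R (th l g x) (tt l (ι γ) v)
  | [] => M.zero (one_mem _) (.refl 0)
  | r :: l => tt_app r l γ v ▸ M.mul (M.act (a.pow r) b) (R_th a b l)

theorem fix_cg (a : A f g γ) (h : g ^ 23 = 1) (r : R x v) (c : Cg (γ • v) v) : x ∈ C[g] := by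
  rw [mem_cent1_symm]
  rcases (M.uniq r (M.act a r)).1 c.symm with e | e
  · exact mem_cent1.2 (mul_inv_eq_iff_eq_mul.1 e)
  · refine odd_mem (by decide) h (mem_cent1.2 (mul_inv_eq_iff_eq_mul.1 ?_))
    calc _ = g * (g * x * g⁻¹) * g⁻¹ := by group
      _ = g * x * g⁻¹ * (g * z * g⁻¹) := by rw [conj_mul, e]
      _ = x := by rw [e, mem_cent1.1 a.1, mul_inv_cancel_right, mul_assoc, M.le.es.zz, mul_one]

theorem ab_le (l : X ≤ Q) (c : ∀ x ∈ X, ∀ y ∈ X, x * y = y * x) : #X ≤ 2 ^ 13 := by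
  have E := M.le.es
  have h := E.card_cent (mem_sup_right (mem_zpowers z)) (sup_le l E.zp_le)
  have : X ⊔ zpowers z ≤ Q ⊓ C(X ⊔ zpowers z) := le_inf (sup_le l E.zp_le) (by
    rw [cent_sup, cent_zpowers]
    exact sup_le (le_inf (fun x a => mem_cent.2 fun y b => c y b x a) (l.trans E.le_cent))
      (zpowers_le.2 ⟨mem_cent.2 fun y b => E.cent y (l b), mem_cent1.2 rfl⟩))
  have := card_le this
  have := card_le (le_sup_left : X ≤ X ⊔ zpowers z)
  rw [M.card] at h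
  nlinarith

theorem not_Q (h : g ^ 23 = 1) (n : g ≠ 1) : g ∉ Q := fun a => n (by
  simpa using pow_gcd_eq_one.2 ⟨M.le.es.pow4 a, h⟩)

end

theorem b1 : B1.{u} := fun G _ _ Q X z g f R δ M gz T XQ => by
  have E := M.le.es
  obtain ⟨γ, a, γ23⟩ := lift23 (f := f) gz T.g23
  have sq : Sq X ≤ zpowers z := Sq_le.2 fun x h => E.sq_mem (XQ h)
  obtain ⟨fp, c⟩ := big T
  have Xg : X ≤ Q ⊓ C[g] := le_inf XQ fun x h => by
    obtain c | ⟨b, K, K1, K2, K3⟩ := c
    · obtain ⟨v, r⟩ := M.tot x (XQ h)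
      exact fix_cg M a T.g23 r (Cg.add_zero.1 ((M.rk (M.comm a r)).1 (sq (c x h))))
    have := ab_le M (K1.trans XQ) fun x hx y hy => by
      obtain ⟨u, r⟩ := M.tot x (XQ (K1 hx))
      obtain ⟨v, r'⟩ := M.tot y (XQ (K1 hy))
      have k1 := dot_cg (u := u) (cg_adj γ23 ((M.rk (R_th M a r' _)).1 (sq (K3 y hy))))
      have k2 := dot_cg (u := v) ((M.rk (R_th M a r _)).1 (sq (K3 x hx)))
      rw [← dot_adj, dotInt_comm] at k1
      rw [show dotInt (cf v) (cf 0) = 0 from (dotInt_comm _ _).trans (dotInt_zero_left _)] at k2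
      rw [cm' M r r']; omega
    have : 0 < #(Sq X) := Nat.card_pos
    omega
  obtain ⟨k, hk⟩ := in_NN γ23
  obtain ⟨s, r⟩ := M.sur (k⁻¹ • lE)
  have ss := sq4 (M.twist k⁻¹) r
  have sP : s ∈ Q ⊓ C[g] := ⟨M.mem r, fix_cg M a T.g23 r (by simpa [mul_smul] using (stab_E.2 hk).smul k⁻¹)⟩
  have sz := H3.AM.s_ne (M.twist k⁻¹) r
  have key := M.le.key (B := zpowers g) (piG_odd (Nat.card_zpowers g ▸ Odd.of_dvd_nat (by decide)
    (orderOf_dvd_of_pow_eq_one T.g23))) (zpowers_le.2 gz)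
  rw [cent_zpowers] at key
  have EP : ES (Q ⊓ C[g]) z := ⟨⟨E.zQ, mem_cent1_symm.1 gz⟩, E.z1, E.zz, fun x a y b => E.comm x a.1 y b.1,
    fun x a => E.sq x a.1, fun x a => E.cent x a.1, fun x a b => E.mem_zp.1 (key x a b), by
      by_contra! n; exact sz (key s sP (n s sP))⟩
  have c8 : #(Q ⊓ C[g]) = 8 := by
    obtain ⟨n, n1, e⟩ := EP.exists_width
    have l := card_lt (lt_of_le_of_ne inf_le_left fun e => not_Q M T.g23 T.g1
      (M.le.cent (le_cent1_iff.1 (e.ge.trans inf_le_right))) : Q ⊓ C[g] < Q)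
    have m := fp_mod (by norm_num : Nat.Prime 23) (f := cn g) (S := Q) (fun _ => conj_mem_of_norm (M.le.norm gz))
      fun x _ => by
        have : ∀ n, (cn g)^[n] x = g ^ n * x * (g ^ n)⁻¹ := fun n => by
          induction n with
          | zero => simp
          | succ n ih => rw [iterate_succ_apply', ih, pow_succ']; simp [mul_assoc]
        rw [this, T.g23]; simp
    replace m : #Q % 23 = #(Q ⊓ C[g]) % 23 := m.trans (congrArg (· % 23) (Nat.card_congr (Equiv.subtypeEquivRight fun x =>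
      and_congr_right fun _ => mul_inv_eq_iff_eq_mul.trans (eq_comm.trans mem_cent1.symm))))
    rw [M.card, e] at *
    have := (Nat.pow_lt_pow_iff_right one_lt_two).1 l
    have : n < 12 := by omega
    interval_cases n <;> simp at m ⊢
  have d1 : ∀ x ∈ X, x ≠ 1 → δ x ≠ 1 := fun x a b e => b (T.au.inj x a e)
  by_cases q : ∀ x ∈ X, x * x = 1
  swap
  · push Not at q
    obtain ⟨x, x1, x2⟩ := q
    have nz : ∀ {u}, u * u ≠ 1 → u ∉ zpowers z := fun n m => n (by rcases E.mem_zp.1 m with rfl | rfl <;> simp [E.zz])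
    have k : ∀ {u v}, u ∈ Q ⊓ C[g] → v ∈ Q ⊓ C[g] → u * u ≠ 1 → v * u = u * v → v ∈ zpowers z ∨ u⁻¹ * v ∈ zpowers z :=
      fun a b n e => by rcases four EP c8 a b (nz n) e with rfl | rfl | rfl | rfl <;> simp
    have k' : ∀ {u}, u ∈ Q ⊓ C[g] → u * u ≠ 1 → s * u ≠ u * s := fun {u} a n e => (k a sP n e).elim sz fun m => n (by
      rcases E.mem_zp.1 m with m | m <;> rw [inv_mul_eq_iff_eq_mul] at m
      · rw [← ss, m, mul_one]
      · rw [← ss, m, mul_assoc u z, ← mul_assoc z, ← E.cent u a.1, mul_assoc u z, E.zz, mul_one])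
    have y1 := T.au.mem x x1
    have y2 : δ x * δ x ≠ 1 := T.au.mul x x1 x x1 ▸ d1 _ (mul_mem x1 x1) x2
    have xz := (E.sq x (XQ x1)).resolve_left x2
    have n : δ x * x ≠ x * δ x := fun e => (k (Xg x1) (Xg y1) x2 e).elim (nz y2) fun m =>
      nz x2 (sq (fp x x1 (zpowers_le.2 (xz ▸ sq_Sq x1) m)))
    refine (k' (mul_mem (Xg x1) (Xg y1)) ?_ ?_).elim
    · rw [E.sq_mul (XQ x1) (XQ y1), xz, (E.sq _ (XQ y1)).resolve_left y2, E.zz, one_mul, E.comm_eq (XQ y1) (XQ x1) n]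
      exact E.z1
    · rw [← mul_assoc, E.mul_eq sP.1 (XQ x1) (k' (Xg x1) x2), mul_assoc, mul_assoc, E.mul_eq sP.1 (XQ y1) (k' (Xg y1) y2),
        ← mul_assoc x z, E.cent x (XQ x1)]
      simp [← mul_assoc, E.zz]
  have d2 : ∀ x ∈ X, x ≠ 1 → δ x ≠ x := fun x a b e => b (mem_bot.1 (Sq_le.2 q (fp x a (by rw [e]; simp))))
  have cm : ∀ x ∈ X, ∀ y ∈ X, x * y = y * x := fun x a y b => mul_comm_of_comm (abelem2_iff.2 q).1 a b
  refine or_iff_not_imp_left.2 fun n => ?_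
  obtain ⟨⟨x, x1⟩, x2⟩ := ne_bot_iff_exists_ne_one.1 n
  have x2 : x ≠ 1 := fun e => x2 (Subtype.ext e)
  have zX : z ∈ X := by_contra fun n => by
    have y1 := T.au.mem x x1
    rcases four EP c8 (Xg x1) (Xg y1) (fun m => (E.mem_zp.1 m).elim x2 fun e => n (e ▸ x1)) (cm _ y1 _ x1) with e | e | e | e
    exacts [d1 x x1 x2 e, n (e ▸ y1), d2 x x1 x2 e, n ((mul_mem_cancel_left x1).1 (e ▸ y1))]
  have u1 := T.au.mem z zX
  have u2 := d1 z zX E.z1
  have k := fun v h => four EP c8 (Xg u1) (Xg h) (fun m => (E.mem_zp.1 m).elim u2 (d2 z zX E.z1)) (cm v h _ u1)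
  refine ⟨zX, fun v h => ?_⟩
  rcases k _ (T.au.mem _ u1) with e | e | e | e
  · exact (d1 _ u1 u2 e).elim
  · exact (d2 z zX E.z1 (by simpa only [e] using T.d3 z zX)).elim
  · exact (d2 _ u1 u2 e).elim
  · rw [e]; exact k v h

section
variable {γ e : Co0} {u v : Lam}

theorem N_four (h : γ ∈ NN) (a : ∀ i, 4 ∣ cf v i) (i : GolayPt) : 4 ∣ cf (γ • v) i := by
  obtain ⟨_, ⟨c, hc, rfl⟩, σ, rfl⟩ := exists_NN h
  have := cf_prm' σ.2 v i ▸ a (σ.1⁻¹ i)
  rw [mul_smul, cf_sgn]; split_ifs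
  exacts [this.neg_right, this]

theorem N_fix (h : γ ∈ NN) (c : Cg u 0 ∨ Cg u lE) : Cg (γ • u) u :=
  c.elim (fun c => (co_zero γ ▸ c.smul γ).trans c.symm) fun c => ((c.smul γ).trans (stab_E.2 h)).trans c.symm

theorem E_cg (h : e ∈ EE) (a : ∀ i, 4 ∣ cf v i) : Cg (e • v - v) 0 ∨ Cg (e • v - v) lE := by
  obtain ⟨c, hc, rfl⟩ := h
  refine H3.AM.cg8 fun i => ?_
  have := a i
  rw [H3.AM.cf_sub, cf_sgn]; split_ifs <;> omega

theorem pair (h : γ ∈ NN) (n : γ ∈ N(EE)) (he : e ∈ EE) (a : ∀ i, 4 ∣ cf v i) :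
    ∀ l, Cg (th l γ e • v - v) (e • tt l (ι γ⁻¹) v - tt l (ι γ⁻¹) v)
  | [] => by
    rw [show th [] γ e = 1 from rfl, show tt [] (ι γ⁻¹) v = 0 from rfl, one_smul, co_zero, sub_self, sub_self]; exact .refl _
  | r :: l => by
    have k1 := (N_fix (EE_le (conj_mem_of_norm (pow_mem n r) he)) (E_cg (th_mem n he l) a)).trans (pair h n he a l)
    have k2 := N_fix (pow_mem h r) (E_cg he (N_four (inv_mem (pow_mem h r)) a))
    rw [th_cons, tt_app, inv_pow, co_add, add_sub_add_comm]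
    convert k2.add k1 using 1
    simp only [co_sub, mul_smul, smul_inv_smul]; abel

theorem nd (h : ∀ e ∈ EE, Cg (e • v) v) : Cg v 0 ∨ Cg v lE := by
  let W : AddSubgroup Lam :=
    { carrier := {v | ∀ e ∈ EE, Cg (e • v) v}
      zero_mem' := fun e _ => by rw [co_zero]; exact .refl _
      add_mem' := fun a b e c => by rw [co_add]; exact (a e c).add (b e c)
      neg_mem' := fun a e c => by rw [co_neg]; exact ((Cg.neg _).trans (a e c)).trans (Cg.neg _).symm }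
  have n : r4 none (pt 4) true true ∉ W := fun m => by
    have := (m _ ⟨_, O0_mem.1, rfl⟩).short (by rw [co_norm, nm_r4 (by decide)]; norm_num) (by rw [nm_r4 (by decide)]; norm_num)
    revert this; decide +kernel
  obtain c | c | c := H3.AM.un W (fun v e c => N_fix (EE_le c) (.inl (cg_zero.2 ⟨v, rfl⟩))) fun g a v b e c => by
    simpa [mul_smul] using (b _ (conj_EE (inv_mem a) c)).smul g
  exacts [c v h, (n ((c _).2 ⟨_, .refl _, H3.AM.d4_r4 _ _ _ _⟩)).elim,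
    (n (c _ fun i => (by norm_num : (2 : ℤ) ∣ 4).trans (H3.AM.d4_r4 _ _ _ _ i))).elim]

end

theorem b2 (ne : NE) : B2.{u} := fun G _ _ Q X z g f R δ M gz T Xz I d4 => by
  have : Finite Co0 := Nat.finite_of_card_ne_zero (by rw [card_Co0]; decide)
  have E := M.le.es
  obtain ⟨γ, a, γ23⟩ := lift23 (f := f) gz T.g23
  have γE : γ ∈ N(EE) := mem_normalizer_fintype fun e he => by
    obtain ⟨x, x1, x2⟩ := mem_img.1 (I.ge he)
    exact I.le (mem_img.2 ⟨_, conj_mem_of_norm T.gX x1, (a.mul x2).mul a.inv⟩)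
  have γN := ne γE
  have sq : Sq X ≤ Q := Sq_le.2 fun x h => by
    obtain ⟨e, b⟩ := A.tot (f := f) (Xz h)
    exact (M.aker (b.mul b)).2 (by rw [EE_sq (I.le (mem_img.2 ⟨x, h, b⟩))]; exact one_mem _)
  obtain c | ⟨b, K, K1, K2, K3⟩ := (big T).2
  · refine not_Q M T.g23 T.g1 ((M.aker a).2 (H3.AM.cen_r4 fun i j s t n => ?_))
    have v4 := H3.AM.d4_r4 i j s t
    have v0 := nz_of (nm_r4 n s t) (by norm_num)
    generalize r4 i j s t = v at *
    obtain ⟨x, r⟩ := M.sur v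
    have k := N_fix γN (nd (v := γ • v - v) fun e he => by
      obtain ⟨y, y1, y2⟩ := mem_img.1 (I.ge he)
      have := cg_center ((M.aker (((a.mul y2).mul a.inv).mul y2.inv)).1 (sq (c y y1))) (e • γ • v)
      simp only [mul_smul, inv_smul_smul] at this
      obtain ⟨p, hp⟩ := this
      obtain ⟨q, hq⟩ := N_fix γN (E_cg he v4)
      exact ⟨q - p, by rw [smul_sub, ← hp, ← hq]; simp only [co_sub]; abel⟩)
    rw [← M.img_cent r v0]
    refine odd_mem (by decide) γ23 ((M.img_cent r v0).2 ?_)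
    obtain ⟨w, e⟩ := k
    exact ⟨w + γ • v - v, by rw [smul_sub, smul_add, ← e, co_sub, mul_smul]; abel⟩
  let D : Subgroup G :=
    { carrier := {x | D4 R x}
      one_mem' := ⟨0, M.zero (one_mem _) (.refl 0), fun _ => dvd_zero _⟩
      mul_mem' := fun ⟨_, a, b⟩ ⟨_, c, d⟩ => ⟨_, M.mul a c, fun i => (b i).add (d i)⟩
      inv_mem' := fun ⟨_, a, b⟩ => ⟨_, M.inv a, b⟩ }
  have gD : g ∈ N(D) := mem_normalizer_fintype fun x ⟨v, r, h⟩ => ⟨_, M.act a r, N_four γN h⟩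
  have cD : ∀ x ∈ D, ∀ y ∈ D, x * y = y * x := fun x ⟨v, r, h⟩ y ⟨w, r', h'⟩ =>
    (cm' M r r').2 (Finset.dvd_sum fun i _ => mul_dvd_mul (h i) (h' i))
  let θ : D →* G := .mk' (fun x => th (qr b) g x) fun x y => by
    induction qr b with
    | nil => exact (mul_one 1).symm
    | cons r l ih =>
      rw [th_cons, th_cons, th_cons, ih, coe_mul, ← conj_mul, mul_assoc, mul_assoc _ (th l g x), ← mul_assoc (th l g x),
        cD _ (th_mem gD x.2 l) _ (conj_mem_of_norm (pow_mem gD r) y.2), mul_assoc _ (th l g x)]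
  obtain ⟨s, rs⟩ := M.sur lE
  have k1 := H1.card_map_mul_card_inf_ker θ ⊤
  have k2 := card_lt (lt_of_le_of_ne (zpowers_le.2 ⟨⟨z, 0, M.zero (mem_zpowers z) (.refl 0), fun _ => dvd_zero _⟩, trivial,
      th_inv (mem_cent1.1 gz) E.zz b⟩) fun e => H3.AM.s_ne M rs (e.ge ⟨⟨s, lE, rs, fun i => by
        rw [H3.AM.cf_lE]; split_ifs <;> norm_num⟩, trivial,
        th_inv (mem_cent1.1 (fix_cg M a T.g23 rs (stab_E.2 γN))).symm (sq4 M rs) b⟩) : zpowers z < (⊤ : Subgroup D).map θ)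
  have k3 := ab_le M (X := D) (fun x ⟨_, r, _⟩ => M.mem r) cD
  have k4 := H1.card_map_mul_card_inf_ker θ ((K ⊓ Q).subgroupOf D)
  have k5 := card_le (show ((K ⊓ Q).subgroupOf D).map θ ≤ Sq X by rintro _ ⟨x, h, rfl⟩; exact K3 _ h.1)
  have k6 := card_le (inf_le_left : θ.ker ⊓ (K ⊓ Q).subgroupOf D ≤ θ.ker)
  have k7 := M.card_img (K1.trans Xz)
  have k8 : img f K ≤ EE := I ▸ img_mono K1
  have p : 0 < #(Sq X) := Nat.card_pos
  rw [card_subgroupOf, inf_of_le_left (show K ⊓ Q ≤ D from fun x h => d4 x ⟨K1 h.1, h.2⟩)] at k4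
  rw [inf_top_eq, card_top] at k1
  rw [E.card_zp] at k2
  have k9 := k4 ▸ Nat.mul_le_mul k5 k6
  by_cases J : θ.ker = ⊥
  · have := card_le k8
    rw [J, card_bot] at k9
    rw [card_EE] at this
    have := Nat.mul_le_mul this k9
    omega
  obtain ⟨⟨⟨d, v, r, h⟩, d1⟩, d2⟩ := ne_bot_iff_exists_ne_one.1 J
  have l := card_lt (lt_of_le_of_ne k8 fun e => d2 (Subtype.ext (Subtype.ext ?_)))
  · have := card_dvd k8
    rw [card_EE] at l this
    have : #(img f K) ≤ 2 ^ 11 := by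
      obtain ⟨j, -, e⟩ := (Nat.dvd_prime_pow Nat.prime_two).1 this
      rw [e] at l ⊢
      exact Nat.pow_le_pow_right two_pos (Nat.lt_succ_iff.1 ((Nat.pow_lt_pow_iff_right one_lt_two).1 l))
    have := Nat.mul_le_mul this k9
    have := Nat.mul_le_mul_right #θ.ker k2
    have := Nat.le_of_mul_le_mul_left (show #(Sq X) * 2 ^ 12 ≤ #(Sq X) * #θ.ker by linarith) p
    omega
  have d1 : th (qr b) g d = 1 := d1
  have w := cg_adj γ23 ((M.rk (R_th M a r (qr b))).1 (d1 ▸ one_mem _))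
  have := fix_cg M a T.g23 r (N_fix γN (nd fun ε hε => by
    obtain ⟨x, x1, x2⟩ := mem_img.1 (e.ge hε)
    exact ((w.smul ε).symm.trans (Cg.sub_zero.1 ((pair γN γE hε h _).symm.trans (Cg.sub_zero.2
      (cg_center ((M.aker (A_th a x2 _)).1 (sq (K3 x x1))) v))))).trans w))
  rw [th_fix (mem_cent1.1 this).symm, show (qr b).length = 11 by cases b <;> rfl] at d1
  simpa using pow_gcd_eq_one.2 ⟨E.pow4 (M.mem r), d1⟩

end H2.AM
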