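/-
S5815: the pieces `M4` and `RT`.
-/
import Cfsg.Agent.H12.O7a

set_option autoImplicit false
set_option linter.unusedSectionVars false

open Module QuadraticMap H11 H12 Cfsg H26.O7 H12.O7 Relation
namespace H2.O7
universe u

section
variable {F : Type u} [Field F] {Y : Subgroup (Au F (V F))} {δ : F} {R : Set (V F)} {x y z u v w : V F} {g : Au F (V F)}

theorem xx_comm (x y : V F) : xx δ x y = xx δ y x := by rw [xx, xx, polar_comm]
theorem xx_sub (x y z : V F) : xx δ x (y - z) = xx δ x y - xx δ x z := by rw [xx, xx, xx, polar_sub_right, sub_div]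
theorem xx_smul (c : F) (x y : V F) : xx δ x (c • y) = c * xx δ x y := by
  rw [xx, xx, polar_smul_right, smul_eq_mul, mul_div_assoc]
theorem xx_neg (x y : V F) : xx δ x (-y) = -xx δ x y := by rw [xx, xx, polar_neg_right, neg_div]
theorem xx_map (hg : g ∈ orth (Q F)) (x y : V F) : xx δ (g x) (g y) = xx δ x y := by
  rw [xx, xx, orth_polar ⟨g, hg⟩]
theorem od0 : ¬ Od (0 : F) := by simp [Od, Pent]
theorem od2 : ¬ Od (2 : F) := by
  rintro (e | ⟨e, -⟩)
  · exact one_ne_zero (α := F) (by linear_combination e)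
  · exact one_ne_zero (α := F) (by linear_combination -e)
theorem rf_rf (x y : V F) : (refl (Q F) x).1 ((refl (Q F) x).1 y) = y :=
  congrArg (fun g : orth (Q F) => g.1 y) (refl_mul_self x)

/-- stabilizer of a set of vectors -/
def sst (C : Set (V F)) : Subgroup (Au F (V F)) where
  carrier := {g | ∀ w, w ∈ C ↔ g w ∈ C}
  one_mem' _ := Iff.rfl
  mul_mem' {a b} ha hb w := (hb w).trans (ha _)
  inv_mem' {a} ha w := by rw [ha (a⁻¹ w), ← LinearEquiv.mul_apply, mul_inv_cancel]; rfl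

/-- joined roots -/
def Ed (δ : F) (R : Set (V F)) (u w : V F) : Prop := u ∈ R ∧ w ∈ R ∧ (u = w ∨ u = -w ∨ Od (xx δ u w ^ 2))

theorem Ed.symm (e : Ed δ R u w) : Ed δ R w u :=
  ⟨e.2.1, e.1, e.2.2.imp .symm (.imp (fun t => by rw [t, neg_neg]) fun t => by rwa [xx_comm])⟩

variable (h : Rt Y δ R)
include h

theorem xx_self (hx : x ∈ R) : xx δ x x = 2 := by
  rw [xx, polar_self, h.norm x hx, two_nsmul, div_eq_iff h.ne, two_mul]
theorem rf_eq (hx : x ∈ R) (y : V F) : (refl (Q F) x).1 y = y - xx δ x y • x := by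
  rw [refl_apply, h.norm x hx, xx, div_eq_inv_mul]
theorem rf_mem (hx : x ∈ R) (hy : y ∈ R) : y - xx δ x y • x ∈ R := rf_eq h hx y ▸ h.inv _ (h.rf x hx) y hy
theorem le_sst {C : Set (V F)} (h1 : ∀ x ∈ R, ∀ y ∈ C, (refl (Q F) x).1 y ∈ C) (h2 : ∀ y ∈ C, -y ∈ C) : Y ≤ sst C :=
  h.gen _ (fun x hx w => ⟨h1 x hx w, fun m => rf_rf x w ▸ h1 x hx _ m⟩) fun w => ⟨h2 w, fun m => neg_neg w ▸ h2 _ m⟩
theorem ed_ne (e : Ed δ R u w) : xx δ u w ≠ 0 := by
  rcases e.2.2 with rfl | rfl | t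
  · rw [xx_self h e.1]; exact h.two
  · rw [xx_comm, xx_neg, xx_self h e.2.1]; exact neg_ne_zero.2 h.two
  · exact fun c => od0 (F := F) (by simpa [c] using t)
theorem ed_n2 (e : Ed δ R u w) : xx δ u w ^ 2 ≠ 2 := fun c => by
  rcases e.2.2 with rfl | rfl | t
  · rw [xx_self h e.1] at c; exact h.two (by linear_combination c)
  · rw [xx_comm, xx_neg, xx_self h e.2.1] at c; exact h.two (by linear_combination c)
  · exact od2 (c ▸ t)
theorem ed_map (hg : g ∈ Y) (e : Ed δ R u w) : Ed δ R (g u) (g w) :=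
  ⟨h.inv g hg u e.1, h.inv g hg w e.2.1, e.2.2.imp (congrArg g) (.imp (fun t => by rw [t, map_neg]) fun t => by
    rwa [xx_map (h.le hg)])⟩

variable (H1 : ∀ x ∈ R, ∀ y ∈ R, x = y ∨ x = -y ∨ xx δ x y = 0 ∨ xx δ x y ^ 2 = 2 ∨ Od (xx δ x y ^ 2))
include H1

theorem tri (hx : x ∈ R) (hy : y ∈ R) (n : ¬ Ed δ R x y) : xx δ x y = 0 ∨ xx δ x y ^ 2 = 2 := by
  have := H1 x hx y hy
  simp only [Ed, hx, hy, true_and] at n
  tauto

theorem no_edge (n : ∀ x ∈ R, ∀ y ∈ R, Od (xx δ x y ^ 2) → x = y ∨ x = -y) (hx : x ∈ R) (hy : y ∈ R) :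
    xx δ x y ^ 2 ≠ 2 := fun c => by
  have t : ∀ w ∈ R, ∀ x ∈ R, w ∉ Submodule.span F {x} → xx δ w x = 0 ∨ xx δ w x ^ 2 = 2 := fun w hw x hx m =>
    tri h H1 hw hx fun e => m (by
      rcases e.2.2.elim .inl fun t => t.elim .inr (n w hw x hx) with rfl | rfl
      exacts [Submodule.mem_span_singleton_self _, neg_mem (Submodule.mem_span_singleton_self _)])
  have k : ∀ x ∈ R, ∀ y ∈ R, xx δ x y ^ 2 = 2 → ∀ w ∈ R, w ∉ Submodule.span F {x, y} → xx δ w x = 0 :=
    fun x hx y hy c w hw m => by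
    have a : x ∈ Submodule.span F {x, y} := Submodule.subset_span (.inl rfl)
    have b : y ∈ Submodule.span F {x, y} := Submodule.subset_span (.inr rfl)
    have s : ∀ z ∈ R, z ∈ Submodule.span F {x, y} → xx δ w z = 0 ∨ xx δ w z ^ 2 = 2 := fun z hz l =>
      t w hw z hz fun e => m ((Submodule.span_singleton_le_iff_mem _ _).2 l e)
    refine (s x hx a).resolve_right fun e => ?_
    have e1 := s y hy b
    have e2 := s _ (rf_mem h hx hy) (sub_mem b (Submodule.smul_mem _ _ a))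
    rw [xx_sub, xx_smul] at e2
    generalize xx δ x y = p at c e2
    generalize xx δ w x = q at e e2
    generalize xx δ w y = r at e1 e2
    have : (2 : F) ^ 4 = 0 := by grind
    exact h.two (pow_eq_zero_iff (by decide) |>.1 this)
  rcases rt_irr h (Submodule.span F {x, y}) (fun w hw z hz => by
    rw [rf_eq h hw]
    by_cases m : w ∈ Submodule.span F {x, y}
    · exact sub_mem hz (Submodule.smul_mem _ _ m)
    · obtain ⟨a, b, rfl⟩ := Submodule.mem_span_pair.1 hz
      rwa [show xx δ w (a • x + b • y) = 0 by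
        rw [← sub_neg_eq_add, xx_sub, xx_neg, xx_smul, xx_smul, k x hx y hy c w hw m,
          k y hy x hx (by rwa [xx_comm]) w hw (by rwa [Set.pair_comm])]; simp, zero_smul, sub_zero]) with e | e
  · exact rt_q0 h hx (by rw [(Submodule.eq_bot_iff _).1 e x (Submodule.subset_span (.inl rfl)), map_zero])
  · classical
    have := finrank_span_finset_le_card (R := F) ({x, y} : Finset (V F))
    rw [Set.finrank, Finset.coe_pair, e, finrank_top, finrank_fintype_fun_eq_card] at this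
    exact absurd (this.trans Finset.card_le_two) (by decide)

theorem conn (hv : v ∈ R) (hu : u ∈ R) (o : Od (xx δ v u ^ 2)) (n1 : v ≠ u) (n2 : v ≠ -u) (hw : w ∈ R) :
    ReflTransGen (Ed δ R) v w := by
  let C := {w | ReflTransGen (Ed δ R) v w}
  have cr : ∀ y ∈ C, y ∈ R := fun y m => by
    induction m with
    | refl => exact hv
    | tail _ e => exact e.2.1
  have ng : ∀ y ∈ C, -y ∈ C := fun y m => m.tail ⟨cr y m, h.neg y (cr y m), .inr (.inl (neg_neg y).symm)⟩
  have sy : ∀ {a b}, ReflTransGen (Ed δ R) a b → ReflTransGen (Ed δ R) b a := fun m => by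
    induction m with
    | refl => exact .refl
    | tail _ e ih => exact ih.head e.symm
  have mp : ∀ {g a b}, g ∈ Y → ReflTransGen (Ed δ R) a b → ReflTransGen (Ed δ R) (g a) (g b) := fun hg m => by
    induction m with
    | refl => exact .refl
    | tail _ e ih => exact ih.tail (ed_map h hg e)
  have gd : ∀ x ∈ R, ∀ y ∈ C, (refl (Q F) x).1 y ∈ C → ∀ z ∈ C, (refl (Q F) x).1 z ∈ C := fun x hx y hy m z hz =>
    m.trans (mp (h.rf x hx) ((sy hy).trans hz))
  have g1 : ∀ x ∈ C, ∀ z ∈ C, (refl (Q F) x).1 z ∈ C := fun x hx =>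
    gd x (cr x hx) x hx (by rw [refl_apply_self (rt_q0 h (cr x hx))]; exact ng x hx)
  have bd : ∀ x ∈ R, ¬ (∀ z ∈ C, (refl (Q F) x).1 z ∈ C) → ∀ y ∈ C, ∀ z ∈ C, xx δ x y ^ 2 = 2 ∧
      (xx δ y z = 0 ∨ xx δ y z = xx δ x y * xx δ x z) := fun x hx b => by
    have t : ∀ y ∈ C, xx δ x y ^ 2 = 2 := fun y hy => (tri h H1 hx (cr y hy) fun e => b (g1 x (hy.tail e.symm))).resolve_left
      fun e => b (gd x hx y hy (by rwa [rf_eq h hx, e, zero_smul, sub_zero]))
    intro y hy z hz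
    have a := t _ (g1 y hy z hz)
    rw [rf_eq h (cr y hy), xx_sub, xx_smul] at a
    refine ⟨t y hy, (mul_eq_zero.1 (mul_left_cancel₀ h.two (?_ : 2 * (xx δ y z * (xx δ y z - xx δ x y * xx δ x z)) =
      2 * 0))).imp_right sub_eq_zero.1⟩
    linear_combination a - t z hz - xx δ y z ^ 2 * t y hy
  have b2 : ∀ x ∈ R, ¬ (∀ z ∈ C, (refl (Q F) x).1 z ∈ C) → ∀ y ∈ C, ∀ z ∈ C, xx δ y z = 2 → xx δ x (y - z) = 0 :=
    fun x hx b y hy z hz e => by
      obtain ⟨a, c⟩ := bd x hx b y hy z hz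
      have c := (e ▸ c).resolve_left h.two
      rw [xx_sub]
      refine mul_left_cancel₀ (a := xx δ x y) (fun t => h.two (by rw [← a, t]; ring)) ?_
      linear_combination a + c
  obtain ⟨g, hg, rfl⟩ := h.tr v hv w hw
  refine (le_sst h (fun x hx => by_contra fun b => ?_) ng hg v).1 .refl
  let N := Submodule.span F {n | ∃ y ∈ C, ∃ z ∈ C, xx δ y z = 2 ∧ n = y - z}
  have nN : ∀ r ∈ R, N.map ((refl (Q F) r).1 : V F →ₗ[F] V F) ≤ N := fun r hr => by
    rw [Submodule.map_span, Submodule.span_le]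
    rintro _ ⟨_, ⟨y, hy, z, hz, t, rfl⟩, rfl⟩
    refine Submodule.subset_span ?_
    by_cases c : ∀ z ∈ C, (refl (Q F) r).1 z ∈ C
    · exact ⟨_, c y hy, _, c z hz, (xx_map (refl (Q F) r).2 y z).trans t, map_sub _ y z⟩
    · exact ⟨y, hy, z, hz, t, by rw [LinearEquiv.coe_coe, rf_eq h hr, b2 r hr c y hy z hz t, zero_smul, sub_zero]⟩
  rcases rt_irr h N (fun r hr y hy => nN r hr ⟨y, hy, rfl⟩) with e | e
  · have uC : u ∈ C := .single ⟨hv, hu, .inr (.inr o)⟩
    have z : ∀ u ∈ C, xx δ v u = 2 → v = u := fun u m t => sub_eq_zero.1 ((Submodule.eq_bot_iff _).1 e _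
      (Submodule.subset_span ⟨v, .refl, u, m, t, rfl⟩))
    obtain ⟨a, c⟩ := bd x hx b v .refl u uC
    have c := c.resolve_left (ed_ne h ⟨hv, hu, .inr (.inr o)⟩)
    rcases sq_eq_sq_iff_eq_or_eq_neg.1 (show xx δ v u ^ 2 = 2 ^ 2 by
      rw [c, mul_pow, a, (bd x hx b u uC u uC).1, pow_two]) with t | t
    · exact n1 (z u uC t)
    · exact n2 (z _ (ng u uC) (by rw [xx_neg, t, neg_neg]))
  · have : N ≤ LinearMap.ker (polarBilin (Q F) x) := Submodule.span_le.2 (by
      rintro _ ⟨y, hy, z, hz, t, rfl⟩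
      exact (div_eq_zero_iff.1 (b2 x hx b y hy z hz t)).resolve_right h.ne)
    have := this (e.ge (Submodule.mem_top (x := x)))
    exact h.two (by rw [← xx_self h hx, xx, show polar (Q F) x x = 0 from this, zero_div])
end

theorem m4 : M4.{u} := by
  intro F _ _ Y δ R h H1 H2 x hx y hy
  by_cases ex : ∀ x ∈ R, ∀ y ∈ R, Od (xx δ x y ^ 2) → x = y ∨ x = -y
  · exact no_edge h H1 ex hx hy
  push Not at ex
  obtain ⟨a, ha, b, hb, o, n1, n2⟩ := ex
  obtain ⟨g, hg, rfl⟩ := h.tr a ha y hy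
  have L : ∀ {x y z}, xx δ x y ^ 2 = 2 → Ed δ R x z → Ed δ R z y → False := fun {x y z} c e f => by
    rcases e.2.2 with rfl | rfl | s
    · exact ed_n2 h f c
    · exact ed_n2 h f (by rwa [xx_comm, xx_neg, neg_sq, xx_comm] at c)
    rcases f.2.2 with rfl | rfl | t
    · exact ed_n2 h e c
    · exact ed_n2 h e (by rwa [xx_neg, neg_sq])
    exact H2 x e.1 y f.2.1 z e.2.1 ⟨c, s, by rwa [xx_comm]⟩
  have p := conn h H1 hy (h.inv g hg b hb) (by rwa [xx_map (h.le hg)]) (fun e => n1 (g.injective e))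
    (fun e => n2 (g.injective (by rw [e, map_neg]))) hx
  generalize g a = y at hy p
  refine (?_ : ∀ u, Ed δ R u x → xx δ u y ^ 2 ≠ 2) x ⟨hx, hx, .inl rfl⟩
  clear hx
  induction p with
  | refl => exact fun u e => ed_n2 h e
  | @tail w x _ f ih =>
    intro u e c
    have t1 := (tri h H1 e.1 f.1 fun t => ih u t c).resolve_right fun t => L t e f.symm
    have t2 := (tri h H1 e.2.1 hy (L c e)).resolve_right (ih x f.symm)
    have m := rf_mem h e.2.1 e.1
    have s1 : xx δ w (u - xx δ x u • x) = -(xx δ x u * xx δ w x) := by rw [xx_sub, xx_smul, xx_comm w u, t1, zero_sub]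
    rcases tri h H1 m f.1 (fun t => ih _ t (by rwa [xx_comm, xx_sub, xx_smul, xx_comm y x, t2, mul_zero, sub_zero, xx_comm]))
      with t | t
    · rw [xx_comm, s1, neg_eq_zero] at t
      exact mul_ne_zero (ed_ne h e.symm) (ed_ne h f) t
    · refine L t ?_ f.symm
      have := ed_map h (h.rf x e.2.1) e
      rw [refl_apply_self (rt_q0 h e.2.1), rf_eq h e.2.1] at this
      exact ⟨m, e.2.1, this.2.2.elim (fun t => .inr (.inl t)) (.imp (fun t => by rw [t, neg_neg])
        fun t => .inr (by rwa [xx_neg, neg_sq] at t))⟩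

theorem rt : RT.{u} := by
  intro F _ _ Y δ R F₁ h
  have t2 : ∀ {a : F}, 2 * a ∈ F₁ → a ∈ F₁ := fun {a} m => by
    simpa [h.two] using F₁.div_mem m (ofNat_mem F₁ 2)
  have cn : ∀ {a b : F}, a ≠ 0 → a ∈ F₁ → a * b ∈ F₁ → b ∈ F₁ := fun {a b} a0 m l => by
    simpa [a0] using F₁.div_mem l m
  refine ⟨fun n w n0 w0 h5 hE hn x hx y hy => ?_, fun ha => ?_⟩
  · obtain ⟨u, hu, b0⟩ := rt_ne h n0
    obtain ⟨g, hg, rfl⟩ := h.tr x hx u hu
    rw [← xx_map (h.le hg)]
    have hv := h.inv g hg y hy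
    generalize g x = u at hu b0
    generalize g y = v at hv
    obtain ⟨d, hd, d0⟩ : ∃ d ∈ F₁, d * (d ^ 2 - 1) ≠ 0 := by
      by_contra! k
      classical
      have : (F₁ : Set F) ⊆ ({0, 1, -1} : Finset F) := fun d m => by
        simpa [sub_eq_zero] using k d m
      have := (Set.ncard_le_ncard this).trans_eq (Set.ncard_coe_finset _)
      exact absurd (h5.trans (this.trans Finset.card_le_three)) (by decide)
    have q := (hE 0 F₁.zero_mem).1
    have nw : polar (Q F) n w = 0 := by simpa using (hE 1 F₁.one_mem).2.1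
    have k : ∀ g ∈ Y, polar (Q F) (g n) v ^ 2 * Q F w / δ ∈ F₁ := fun g hg =>
      orth_polar_inv ⟨g, h.le hg⟩ n v ▸ hn _ (h.inv _ (inv_mem hg) v hv)
    have k0 := hn u hu
    have k1 := hn v hv
    obtain ⟨A, f⟩ : ∃ A, ∀ c ∈ F₁, (polar (Q F) n v - polar (Q F) n u * xx δ u v + c * A +
        c ^ 2 * (polar (Q F) n u ^ 2 * Q F w / δ * polar (Q F) n v)) ^ 2 * Q F w / δ ∈ F₁ :=
      ⟨polar (Q F) w ((refl (Q F) u).1 n) * polar (Q F) n v + polar (Q F) n u ^ 2 / δ * polar (Q F) w v, fun c hc => by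
        convert k _ (mul_mem (hE c hc).2.2 (h.rf u hu)) using 4
        rw [LinearEquiv.mul_apply, eich_apply q (hE c hc).2.1]
        simp only [polar_sub_left, polar_add_left, polar_smul_left, Q_smul, smul_eq_mul, refl_apply, h.norm u hu,
          polar_sub_right, polar_smul_right, polar_self', q, xx, polar_comm _ u n]
        ring⟩
    have z : Q F w / δ ≠ 0 := div_ne_zero w0 h.ne
    simp only [mul_div_assoc] at k0 k1 f
    generalize Q F w / δ = κ at k0 k1 f z
    generalize polar (Q F) n u = β at b0 k0 f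
    generalize polar (Q F) n v = N at k1 f
    generalize xx δ u v = t at f ⊢
    have β0 := mul_ne_zero (pow_ne_zero 2 b0) z
    have c0 : (N - β * t) ^ 2 * κ ∈ F₁ := by simpa using f 0 F₁.zero_mem
    have c4 : (β ^ 2 * κ * N) ^ 2 * κ ∈ F₁ := by convert mul_mem (pow_mem k0 2) k1 using 1; ring
    have c2 : (A ^ 2 + 2 * (N - β * t) * (β ^ 2 * κ * N)) * κ ∈ F₁ := t2 (by
      convert sub_mem (add_mem (f 1 F₁.one_mem) (f _ (neg_mem F₁.one_mem))) (mul_mem (ofNat_mem F₁ 2) (add_mem c0 c4)) using 1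
      ring)
    have c1 : (N - β * t) * A * κ ∈ F₁ := t2 (t2 (cn d0 (mul_mem hd (sub_mem (pow_mem hd 2) F₁.one_mem)) (by
      convert sub_mem (mul_mem (pow_mem hd 3) (sub_mem (f 1 F₁.one_mem) (f _ (neg_mem F₁.one_mem))))
        (sub_mem (f d hd) (f _ (neg_mem hd))) using 1
      ring)))
    have c5 : (N - β * t) * N * κ ∈ F₁ := by
      by_cases e : N - β * t = 0
      · simp [e]
      have : A ^ 2 * κ ∈ F₁ := cn (mul_ne_zero (pow_ne_zero 2 e) z) c0 (by convert pow_mem c1 2 using 1; ring)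
      exact cn β0 k0 (t2 (by convert sub_mem c2 this using 1; ring))
    exact cn β0 k0 (by convert sub_mem (add_mem c0 k1) (mul_mem (ofNat_mem F₁ 2) c5) using 1; ring)
  · obtain ⟨u, hu⟩ := h.ex
    let T := {y | ∃ v ∈ R, y = xx δ u v • v}
    have tp : ∀ v ∈ R, ∀ w ∈ R, xx δ u v * xx δ u w * xx δ v w ∈ F₁ := fun v hv w hw => t2 (by
      have := ha v hv _ (rf_mem h hu hw)
      rw [xx_sub, xx_smul, xx_comm v u] at this
      convert sub_mem (add_mem (ha v hv w hw) (mul_mem (ha u hu v hv) (ha u hu w hw))) this using 1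
      ring)
    let L := {y | ∀ v ∈ R, xx δ y (xx δ u v • v) ∈ F₁}
    have TL : ∀ y ∈ T, y ∈ L := by
      rintro _ ⟨v, hv, rfl⟩ w hw
      rw [xx_smul, xx_comm (_ • v) w, xx_smul, xx_comm w, ← mul_assoc, mul_comm (xx δ u w)]
      exact tp v hv w hw
    have yl : Y ≤ sst L := le_sst h (fun r hr y hy v hv => by
      rw [← xx_map (refl (Q F) r).2, rf_rf, map_smul]
      by_cases c : xx δ u r = 0
      · have := hy _ (h.inv _ (h.rf r hr) v hv)
        rwa [rf_eq h hr, xx_sub u, xx_smul _ u, c, mul_zero, sub_zero, ← rf_eq h hr] at this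
      · have a := hy v hv
        have b := hy r hr
        rw [xx_smul] at a b
        rw [rf_eq h hr, xx_smul, xx_sub, xx_smul, mul_sub]
        refine sub_mem a (cn (pow_ne_zero 2 c) (ha u hu r hr) ?_)
        convert mul_mem b (tp r hr v hv) using 1
        ring) fun y hy v hv => by rw [xx_comm, xx_neg, xx_comm]; exact neg_mem (hy v hv)
    have sp : Submodule.span F T = ⊤ := by
      refine eq_top_iff.2 ((rt_span h (Submodule.span F {u}) hu fun e => h.two ?_).ge.trans (Submodule.span_le.2 fun v hv => ?_))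
      · rw [← xx_self h hu, xx, show polar (Q F) u u = 0 from (CForm.ofQuad (Q F)).mem_perp_singleton.1 e, zero_div]
      · refine (Submodule.smul_mem_iff _ (s := xx δ u v) fun e => hv.2 ?_).1 (Submodule.subset_span ⟨v, hv.1, rfl⟩)
        exact (CForm.ofQuad (Q F)).mem_perp_singleton.2 ((div_eq_zero_iff.1 e).resolve_right h.ne)
    obtain ⟨f, fT, fs, li⟩ := Submodule.exists_fun_fin_finrank_span_eq F T
    let b := (Basis.mk li (fs.trans sp).ge).reindex (Fintype.equivFinOfCardEq (α := ι) (by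
      rw [sp, finrank_top, finrank_fintype_fun_eq_card])).symm
    have bT : ∀ i, b i ∈ T := fun i => by rw [Basis.reindex_apply, Basis.mk_apply]; exact fT _
    have bl : ∀ y ∈ L, ∀ i, xx δ y (b i) ∈ F₁ := fun y hy i => by
      obtain ⟨v, hv, e⟩ := bT i
      exact e ▸ hy v hv
    have nd : ∀ y z, (∀ j, xx δ y (b j) = xx δ z (b j)) → y = z := fun y z e => sub_eq_zero.1 (Q_nd h.two _ fun t => by
      have : polarBilin (Q F) (y - z) = 0 := b.ext fun j => (div_eq_zero_iff.1 (show xx δ (y - z) (b j) = 0 by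
        rw [xx_comm, xx_sub, xx_comm _ y, e, xx_comm, sub_self])).resolve_right h.ne
      exact LinearMap.congr_fun this t)
    let ψ : (ι → F₁) → ι → F₁ := fun c j => ⟨xx δ (b.equivFun.symm fun i => c i) (b j), by
      rw [Basis.equivFun_symm_apply, xx, ← polarBilin_apply_apply, map_sum, LinearMap.sum_apply, Finset.sum_div]
      exact sum_mem fun i _ => by
        rw [polarBilin_apply_apply, polar_smul_left, smul_eq_mul, mul_div_assoc]
        exact mul_mem (c i).2 (bl _ (TL _ (bT i)) j)⟩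
    have sj : Function.Surjective ψ := Finite.injective_iff_surjective.1 fun c d e => funext fun i => Subtype.ext
      (congrFun (b.equivFun.symm.injective (nd _ _ fun j => congrArg Subtype.val (congrFun e j))) i)
    refine ⟨b, fun g hg i j => ?_⟩
    obtain ⟨c, e⟩ := sj fun k => ⟨_, bl _ ((yl hg _).1 (TL _ (bT j))) k⟩
    rw [← nd _ _ fun k => congrArg Subtype.val (congrFun e k), ← Basis.equivFun_apply, LinearEquiv.apply_symm_apply]
    exact (c i).2

end H2.O7
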