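/-
Peterfalvi (9.11): coherence of `S(H₀ C')` for types II, III, IV.
-/
import Cfsg.Agent.H2.PF9b

set_option autoImplicit false
set_option linter.unusedSectionVars false

open Cfsg Subgroup
namespace H2.PF
open H19 hiding eq_bot_mono
open H20 H17
open scoped ComplexConjugate Classical

universe u

theorem binom_lt {a q : ℕ} (ha : 0 < a) (hq : 3 ≤ q) :
    1 + 2 * q * a + q ^ 2 * a ^ 2 + (q + 2) * a ^ 3 < (2 * a + 1) ^ q := by
  induction q, hq using Nat.le_induction with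
  | base => nlinarith [Nat.pow_pos (n := 2) ha]
  | succ q hq ih =>
    rw [pow_succ (2 * a + 1)]
    refine lt_of_le_of_lt ?_ (Nat.mul_lt_mul_of_pos_right ih (by omega))
    obtain ⟨r, rfl⟩ := Nat.exists_eq_add_of_le hq
    nlinarith [Nat.zero_le (a ^ 2), Nat.zero_le (a ^ 3), Nat.zero_le (a ^ 4), Nat.zero_le (r * a ^ 2),
      Nat.zero_le (r * a ^ 3), Nat.zero_le (r * a ^ 4), Nat.zero_le (r ^ 2 * a ^ 3)]

section hilbert
variable {Γ : Type*} [Group Γ] [Finite Γ]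

theorem sum_single_add {ι M : Type*} [AddCommMonoid M] {s : Finset ι} {i₁ : ι} (hi : i₁ ∈ s)
    {F : ι → M} {c : M} (h : ∀ i ∈ s, i ≠ i₁ → F i = c) :
    ∑ i ∈ s, F i = F i₁ + (s.card - 1) • c := by
  rw [← Finset.add_sum_erase s F hi, Finset.sum_congr rfl fun i hi' =>
    h i (Finset.mem_of_mem_erase hi') (Finset.ne_of_mem_erase hi'), Finset.sum_const,
    Finset.card_erase_of_mem hi]

/-- the computation of (9.11.7), (9.11.8) -/
theorem final_calc {ι κ : Type*} {s : Finset ι} {t : Finset κ} {f : ι → Γ → ℂ} {g : κ → Γ → ℂ}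
    (hf : OrthF ⊤ s f) (hg : OrthF ⊤ t g) (ho : ∀ i ∈ s, ∀ j ∈ t, dot ⊤ (f i) (g j) = 0)
    {T A : Γ → ℂ} {i₁ : ι} (hi : i₁ ∈ s) {e : ℕ} (he : 1 < e) (hs : s.card = 2 * e) {b x : ℤ}
    (hT1 : dot ⊤ T (f i₁) = (b - e : ℤ)) (hT : ∀ i ∈ s, i ≠ i₁ → dot ⊤ T (f i) = b)
    (hTg : 1 ≤ ∑ j ∈ t, ‖dot ⊤ T (g j)‖ ^ 2) (hn : nrm ⊤ T = 1 + e ^ 2)
    (hA1 : dot ⊤ A (f i₁) = (x - 1 : ℤ)) (hA : ∀ i ∈ s, i ≠ i₁ → dot ⊤ A (f i) = x)
    (hAg : ∀ j ∈ t, dot ⊤ A (g j) = 0) (hAT : dot ⊤ A T = e) : b = 0 := by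
  have hc : ((2 * e - 1 : ℕ) : ℝ) = 2 * e - 1 := by rw [Nat.cast_pred (by omega)]; push_cast; ring
  have hc' : ((2 * e - 1 : ℕ) : ℂ) = 2 * e - 1 := by rw [Nat.cast_pred (by omega)]; push_cast; ring
  have h1 : ∑ i ∈ s, ‖dot ⊤ T (f i)‖ ^ 2 = ((b : ℝ) - e) ^ 2 + (2 * e - 1) * (b : ℝ) ^ 2 := by
    rw [sum_single_add hi (c := (b : ℝ) ^ 2) fun i h1 h2 => by
      rw [hT i h1 h2, Complex.norm_intCast, sq_abs], hT1, Complex.norm_intCast, sq_abs, hs,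
      nsmul_eq_mul, hc]
    push_cast; ring
  have h2 := hf.bessel₂ hg ho T
  rw [h1, hn] at h2
  have he' : (1 : ℝ) < e := by exact_mod_cast he
  have h3 : (b : ℝ) * (b - 1) ≤ 0 := by nlinarith
  have h4 : b * (b - 1) ≤ 0 := by exact_mod_cast h3
  by_contra hb
  have hb1 : b = 1 := by
    rcases lt_trichotomy b 0 with h | h | h
    · nlinarith
    · exact absurd h hb
    · nlinarith
  subst hb1
  have h5 := (hf.sum hg ho).eq_prj (φ := T) (by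
    rw [Finset.sum_disjSum]
    simp only [Sum.elim_inl, Sum.elim_inr]
    rw [h1, hn]; push_cast; nlinarith)
  rw [h5, prj, dot_sum_right, Finset.sum_disjSum] at hAT
  simp only [Sum.elim_inl, Sum.elim_inr, dot_smul_right] at hAT
  rw [Finset.sum_eq_zero (s := t) fun j hj => by rw [hAg j hj, mul_zero], add_zero,
    sum_single_add hi (c := (x : ℂ)) fun i h1 h2 => by rw [hT i h1 h2, hA i h1 h2]; simp,
    hT1, hA1, hs, nsmul_eq_mul, hc', map_intCast] at hAT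
  have h6 : (e : ℤ) * x = 1 := by
    have : ((1 - e) * (x - 1) + (2 * e - 1) * x : ℤ) = e := by exact_mod_cast hAT
    linarith
  have := Int.eq_one_of_mul_eq_one_right (by positivity) h6
  omega

end hilbert

section abstract
variable {Γ : Type u} [Group Γ] [Finite Γ] [PF5a.{u, u}]

/-- the character-theoretic part of (9.11.6)-(9.11.8) -/
theorem coh_final {L : Subgroup Γ} {S₀ S₁ S₃ : Finset (Γ → ℂ)} {A : Set Γ}
    {τ : (Γ → ℂ) →ₗ[ℂ] (Γ → ℂ)} {R : (Γ → ℂ) → Finset (Γ → ℂ)} (h : SubCoh L S₀ τ R)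
    (c1 : CSub S₁ S₀) (c3 : CSub S₃ S₀)
    (iso : ∀ α ∈ CFon L A, ∀ β ∈ CFon L A, dot ⊤ (τ α) (τ β) = dot L α β)
    (zi : ∀ α ∈ CFon L A, α ∈ ZIrr L → τ α ∈ ZIrr (⊤ : Subgroup Γ))
    (supp : ∀ χ ∈ S₀, χ ∈ CFon L (insert 1 A)) {γ : Γ → ℂ} (hγ : γ ∈ CFon L (insert 1 A))
    (hγz : γ ∈ ZIrr L) (hγo : ∀ χ ∈ S₀, dot L γ χ = 0) {d e : ℕ} (he : 1 < e) (hd : 0 < d)
    (γ1 : γ 1 = d) (d1 : ∀ χ ∈ S₁, deg χ = d) (d3 : ∀ χ ∈ S₃, deg χ = e * d) (i1 : S₁ ⊆ Irr L)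
    (card1 : S₁.card = 2 * e) (big : nrm L γ + 1 < (S₃.filter (· ∈ Irr L)).card) :
    Coherent L (S₃ ∪ S₁) τ := by
  have v1 : ∀ χ ∈ S₁, χ 1 = d := fun χ hχ => by rw [chr_deg (h.chr χ (c1.sub hχ)), d1 χ hχ]
  have v3 : ∀ χ ∈ S₃, χ 1 = e * d := fun χ hχ => by
    rw [chr_deg (h.chr χ (c3.sub hχ)), d3 χ hχ, Nat.cast_mul]
  obtain ⟨ν₁, n1⟩ := PF5a.uniform h c1 fun χ hχ φ hφ => by rw [v1 χ hχ, v1 φ hφ]
  obtain ⟨ν₃, n3⟩ := PF5a.uniform h c3 fun χ hχ φ hφ => by rw [v3 χ hχ, v3 φ hφ]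
  have hne : ∀ χ ∈ S₃, ∀ φ ∈ S₁, φ ≠ χ := fun χ hχ φ hφ e' => by
    have := d3 χ hχ
    rw [← e', d1 φ hφ] at this
    nlinarith
  have o31 : ∀ χ ∈ S₃, ∀ φ ∈ S₁, dot ⊤ (ν₃ χ) (ν₁ φ) = 0 := fun χ hχ φ hφ =>
    PF5a.coh_ortho h n3 n1 (c3.sub hχ) (c1.sub hφ) hχ (c3.star_mem χ hχ) hφ (c1.star_mem φ hφ)
      (hne χ hχ φ hφ) (hne _ (c3.star_mem χ hχ) φ hφ)
  have O31 : ∀ χ ∈ S₃, ∀ φ ∈ S₁, dot L χ φ = 0 := fun χ hχ φ hφ =>
    h.orth χ (c3.sub hχ) φ (c1.sub hφ) (hne χ hχ φ hφ).symm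
  have O13 : ∀ χ ∈ S₃, ∀ φ ∈ S₁, dot L φ χ = 0 := fun χ hχ φ hφ =>
    dot_eq_zero_comm.1 (O31 χ hχ φ hφ)
  -- pairing with a difference of two characters of the same degree
  have key : ∀ {S : Finset (Γ → ℂ)} {ν}, S ⊆ S₀ → Coh L S τ ν → ∀ α ∈ CFon L A, ∀ χ ∈ S, ∀ φ ∈ S,
      χ 1 = φ 1 → dot ⊤ (τ α) (ν χ) = dot ⊤ (τ α) (ν φ) + (dot L α χ - dot L α φ) := by
    intro S ν hS hν α hα χ hχ φ hφ e1
    have h0 : (χ - φ) 1 = 0 := by simp [e1]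
    rw [← dot_sub_right, ← iso α hα _ (CFon.of_insert (sub_mem (supp χ (hS hχ)) (supp φ (hS hφ))) h0),
      ← hν.agree _ h0, map_sub, dot_sub_right]
    ring
  obtain ⟨ψ, hψ⟩ : S₁.Nonempty := by rw [← Finset.card_pos]; omega
  set S₄ := S₃.filter (· ∈ Irr L) with hS₄
  have s43 : ∀ χ ∈ S₄, χ ∈ S₃ := fun χ hχ => (Finset.mem_filter.1 hχ).1
  have hα : γ - ψ ∈ CFon L A := CFon.of_insert (sub_mem hγ (supp ψ (c1.sub hψ))) (by simp [γ1, v1 ψ hψ])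
  have hαz := zi _ hα (sub_mem hγz (irr_zirr (i1 hψ)))
  have f1 : OrthF ⊤ S₁ ν₁ := fun a ha b hb => by
    rw [n1.isom a ha b hb, irr_dot (i1 ha) (i1 hb)]
  have f4 : OrthF ⊤ S₄ ν₃ := fun a ha b hb => by
    rw [n3.isom a (s43 a ha) b (s43 b hb), irr_dot (Finset.mem_filter.1 ha).2 (Finset.mem_filter.1 hb).2]
  have a3 : ∀ χ ∈ S₃, dot ⊤ (τ (γ - ψ)) (ν₃ χ) = 0 := by
    intro χ hχ
    by_contra hc
    have h1 := f4.bessel (τ (γ - ψ))
    rw [nrm_eq_nrm (iso _ hα _ hα), nrm_sub_of_orth (hγo ψ (c1.sub hψ)), irr_nrm (i1 hψ)] at h1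
    refine absurd (big.trans_le ?_) (not_lt.2 h1)
    rw [← mul_one (S₄.card : ℝ), ← nsmul_eq_mul]
    refine Finset.card_nsmul_le_sum _ _ _ fun φ hφ => one_le_pow₀ ?_
    refine zirr_one_le_norm_dot hαz (n3.zirr φ (s43 φ hφ)) ?_
    rw [key c3.sub n3 _ hα φ (s43 φ hφ) χ hχ (by rw [v3 χ hχ, v3 φ (s43 φ hφ)]), dot_sub_left,
      dot_sub_left, hγo φ (c3.sub (s43 φ hφ)), hγo χ (c3.sub hχ), O13 φ (s43 φ hφ) ψ hψ,
      O13 χ hχ ψ hψ]
    simpa using hc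
  obtain ⟨l, hl⟩ : S₄.Nonempty := by
    rw [← Finset.card_pos, ← Nat.cast_pos (α := ℝ)]; linarith [nrm_nonneg L γ]
  have hl3 := s43 l hl
  have hli := (Finset.mem_filter.1 hl).2
  have hβ0 : (l - (e : ℂ) • ψ) 1 = 0 := by simp [v3 l hl3, v1 ψ hψ]
  have hβ : l - (e : ℂ) • ψ ∈ CFon L A := CFon.of_insert
    (sub_mem (supp l (c3.sub hl3)) (Submodule.smul_mem _ _ (supp ψ (c1.sub hψ)))) hβ0
  have hβz := zi _ hβ (sub_mem (irr_zirr hli) (zirr_natCast_smul (irr_zirr (i1 hψ)) e))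
  obtain ⟨b, hb⟩ := zirr_dot_int hβz (n1.zirr ψ hψ)
  obtain ⟨x, hx⟩ := zirr_dot_int hαz (n1.zirr ψ hψ)
  have hb0 : b + e = 0 := by
    refine final_calc f1 f4 (fun i hi j hj => dot_eq_zero_comm.1 (o31 j (s43 j hj) i hi)) hψ he card1
      (x := x + 1) (T := τ (l - (e : ℂ) • ψ)) (A := τ (γ - ψ)) (by rw [hb]; simp)
      (fun φ hφ hne' => ?_) ?_ ?_ (by rw [hx]; simp) (fun φ hφ hne' => ?_)
      (fun j hj => a3 j (s43 j hj)) ?_
    · rw [key c1.sub n1 _ hβ φ hφ ψ hψ (by rw [v1 φ hφ, v1 ψ hψ]), hb, dot_sub_left, dot_sub_left,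
        dot_smul_left, dot_smul_left, O31 l hl3 φ hφ, O31 l hl3 ψ hψ, irr_dot_self (i1 hψ),
        irr_dot_ne (i1 hψ) (i1 hφ) hne'.symm]
      simp
    · have hs3 := c3.star_mem l hl3
      have hs4 : star l ∈ S₄ := Finset.mem_filter.2 ⟨hs3, irr_star hli⟩
      have h1 := key c3.sub n3 _ hβ l hl3 _ hs3 (by rw [v3 l hl3, v3 _ hs3])
      rw [dot_sub_left, dot_sub_left, dot_smul_left, dot_smul_left, O13 l hl3 ψ hψ, O13 _ hs3 ψ hψ,
        irr_dot_self hli, irr_dot_ne hli (irr_star hli) (h.star_ne l (c3.sub hl3)).symm] at h1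
      obtain ⟨φ, hφ, h2⟩ : ∃ φ ∈ S₄, dot ⊤ (τ (l - (e : ℂ) • ψ)) (ν₃ φ) ≠ 0 := by
        by_contra hc
        push Not at hc
        rw [hc l hl, hc _ hs4] at h1
        simp at h1
      exact (one_le_pow₀ (zirr_one_le_norm_dot hβz (n3.zirr φ (s43 φ hφ)) h2)).trans
        (Finset.single_le_sum (f := fun j => ‖dot ⊤ (τ (l - (e : ℂ) • ψ)) (ν₃ j)‖ ^ 2)
          (fun _ _ => sq_nonneg _) hφ)
    · rw [nrm_eq_nrm (iso _ hβ _ hβ), nrm_sub_of_orth (by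
        rw [dot_smul_right, O31 l hl3 ψ hψ, mul_zero]), nrm_smul, irr_nrm hli, irr_nrm (i1 hψ)]
      simp
    · rw [key c1.sub n1 _ hα φ hφ ψ hψ (by rw [v1 φ hφ, v1 ψ hψ]), hx, dot_sub_left, dot_sub_left,
        hγo φ (c1.sub hφ), hγo ψ (c1.sub hψ), irr_dot_self (i1 hψ),
        irr_dot_ne (i1 hψ) (i1 hφ) hne'.symm]
      simp
    · rw [iso _ hα _ hβ, dot_sub_left, dot_sub_right, dot_sub_right, dot_smul_right, dot_smul_right,
        hγo l (c3.sub hl3), hγo ψ (c1.sub hψ), O13 l hl3 ψ hψ, irr_dot_self (i1 hψ)]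
      simp
  refine ⟨ν₁, PF5a.extend h c3.sub c1.sub n1 hψ fun χ hχ _ => ⟨?_, ?_⟩⟩
  · rw [d1 ψ hψ, d3 χ hχ]; exact Dvd.intro_left _ rfl
  · have h0 : (χ - l) 1 = 0 := by simp [v3 χ hχ, v3 l hl3]
    have h1 : ν₁ χ = (ν₃ χ - ν₃ l) + τ (l - (e : ℂ) • ψ) + (e : ℂ) • ν₁ ψ := by
      rw [← map_sub, n3.agree _ h0, ← n1.agree _ h0, ← n1.agree _ hβ0, ← map_smul, ← map_add,
        ← map_add]
      congr 1; abel
    rw [h1, dot_add_left, dot_add_left, dot_sub_left, o31 χ hχ ψ hψ, o31 l hl3 ψ hψ, hb,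
      dot_smul_left, f1.self hψ]
    have : ((b + e : ℤ) : ℂ) = 0 := by rw [hb0]; simp
    simpa using this

end abstract

section general
variable {Γ : Type*} [Group Γ] [Finite Γ] {A B H K L U W X : Subgroup Γ} {φ χ γ : Γ → ℂ}

theorem Ind_sdprod (h : Sdprod K W L) (hφ : φ ∈ CF K) :
    Ind L K φ = ∑ w ∈ fin (W : Set Γ), cfj w φ := by
  have h1 := sum_sub_prod h.left_le h.right_le (fun _ hx => h.mem hx) (fun g => cfj g φ)
  rw [h.inf, card_bot, one_smul, sum_fin_congr (g := fun _ => ∑ w ∈ fin (W : Set Γ), cfj w φ)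
    fun k hk => sum_fin_congr fun w _ => by rw [cfj_mul, (CFon.cinv hφ).cfj_eq hk],
    sum_sub_const] at h1
  rw [Ind_normal h.normal.norm hφ, ← h1, ← Nat.cast_smul_eq_nsmul ℂ, smul_smul,
    inv_mul_cancel₀ (cardC_ne K), one_smul]

theorem dot_triv_triv' (hA : A ≤ K) (B : Subgroup Γ) :
    dot K (triv A) (triv B) = ((A ⊓ B).relIndex K : ℂ)⁻¹ := by
  have h1 : dot K (triv A) (triv B) = dot K (triv (A ⊓ B)) (triv (A ⊓ B)) := by
    refine dot_congr fun x _ => ?_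
    by_cases ha : x ∈ A <;> by_cases hb : x ∈ B <;> simp [triv_apply, ha, hb]
  have h2 := relIndex_mul_dot_of_supp (φ := triv (A ⊓ B)) (ψ := triv (A ⊓ B))
    (inf_le_left.trans hA : A ⊓ B ≤ K) fun x _ hx => Or.inl (triv_of_not_mem hx)
  rw [dot_triv_triv] at h2
  rw [h1, eq_inv_of_mul_eq_one_right h2]

theorem dot_sind_of_ker (hK : K ≤ L) (hH : H ≤ K) (hγ : γ ∈ Chr L) (hk : H ≤ cker γ)
    (hχ : χ ∈ SInd L K H X) : dot L γ χ = 0 := by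
  by_contra hc
  obtain ⟨ξ, hξ, h1, h2⟩ := exists_irr_dot_ne (chr_cinv hγ) hc
  obtain ⟨θ, hθ, rfl⟩ := mem_SInd.1 hχ
  rw [dot_Ind_right hK _ (irr_cinv hξ)] at h2
  exact (mem_IrrK.1 hθ).2.2 (le_cker_of_below (irr_chr hξ) hK (irrK_irr hθ) h2 hH
    (le_cker_of_below hγ le_rfl hξ h1 (hH.trans hK) hk))

theorem eq_of_relIndex_eq (h1 : A ≤ B) (h2 : B ≤ U) (e : A.relIndex U = B.relIndex U) : A = B := by
  have := relIndex_mul_relIndex _ _ _ h1 h2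
  rw [e] at this
  exact le_antisymm h1 (relIndex_eq_one.1 (Nat.eq_of_mul_eq_mul_right (relIndex_pos B U)
    (this.trans (one_mul _).symm)))

end general

namespace NG
variable {Γ : Type*} [Group Γ] [Finite Γ] {M K H H₀ U W H₁ : Subgroup Γ} {p a : ℕ} {w : Γ}
  (h : NG M K H H₀ U W H₁ p a)
include h

theorem exists_ind2 (hw : w ∈ W) (h1 : w ≠ 1) : ∃ θ ∈ IrrK K H (H₀ ⊔ (U ⊓ astab H H₀)),
    deg θ = ((U ⊓ astab H₁ H₀) ⊓ cj w (U ⊓ astab H₁ H₀)).relIndex U := by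
  obtain ⟨l, hl, -⟩ := h.exists_pair
  obtain ⟨i1, i2, i3⟩ := mem_IrrK.1 hl
  have i0 := h.le_Y.trans i2
  have hL := h.lin i1 i0
  have hn := inv_mem (h.nH (h.WM hw))
  have hL2 := hL.mul (hL.cfj hn)
  have h0 : H₀ ≤ cker (l * cfj w⁻¹ l) := (le_inf i0 ((le_cker_cfj
    (inv_mem (h.nH0 (h.WM hw)))).2 i0)).trans (inf_cker_le_mul _ _)
  have hY : ∀ v ∈ W, v ≠ 1 → ∀ x ∈ H₁, l (v * x * v⁻¹) = 1 := fun v hv hv1 x hx => by
    have := h.cj_le_Y hv hv1 (conj_mem_cj.2 hx)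
    exact (hL.mem_cker (h.Y_le this)).1 (i2 this)
  have k1 := h.not_cj_le hL2 hl W.one_mem fun x hx => by
    rw [one_mul, inv_one, mul_one, Pi.mul_apply, cfj_apply,
      hY _ (inv_mem hw) (inv_ne_one.2 h1) x hx, mul_one]
  have k2 := h.not_cj_le hL2 hl hw fun x hx => by
    rw [Pi.mul_apply, cfj_apply, hY _ hw h1 x hx, one_mul]
    congr 1; group
  have hV : (U ⊓ astab H₁ H₀) ⊓ cj w (U ⊓ astab H₁ H₀) ≤ U := inf_le_left.trans inf_le_left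
  have hVn := hV.trans (h.UM.trans h.nH)
  obtain ⟨ψ, j1, -, j3⟩ := h.exists_ind le_rfl h.KM (mem_IrrK.2 ⟨hL2.irr, h0, fun h' =>
    k2 ((h.cj_le hw).trans h')⟩) hV (CInv.mul ((lin_cinv_iff hL hVn).2
      ((commutator_mono inf_le_left le_rfl).trans (h.comm_C1.trans i2)))
      ((lin_cinv_iff (hL.cfj hn) hVn).2 (by
        rw [cker_cfj, inv_inv]
        refine (commutator_mono inf_le_right (cj_of_mem_norm (h.nH (h.WM hw))).ge).trans ?_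
        rw [← cj_comm]
        exact cj_mono w (h.comm_C1.trans i2))))
    (by
      rw [h.inertia_eq hL2]
      refine sup_le_sup_left (le_inf ?_ (h.le_cjC hL2 h0 inf_le_left
        ((cinv_inertia K _).mono inf_le_right) hw k2)) _
      simpa using h.le_cjC hL2 h0 inf_le_left ((cinv_inertia K _).mono inf_le_right) W.one_mem k1)
    (le_inf h.C_le (h.C_le_cj hw))
  exact ⟨_, j3, by rw [deg_Ind j1.chr (h.HV_le hV), j1.deg, mul_one, relIndex_sup_sd' h.sdK hV]⟩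

/-- (9.11.2) -/
theorem inf_cj_eq (hd : ∀ θ ∈ IrrK K H (H₀ ⊔ (U ⊓ astab H H₀)),
    deg θ = (U ⊓ astab H H₀).relIndex U ∨ deg θ = a) (hw : w ∈ W) (h1 : w ≠ 1) :
    (U ⊓ astab H₁ H₀) ⊓ cj w (U ⊓ astab H₁ H₀) = U ⊓ astab H H₀ := by
  obtain ⟨θ, hθ, e⟩ := h.exists_ind2 hw h1
  have hle := le_inf h.C_le (h.C_le_cj hw)
  rcases hd θ hθ with e' | e'
  · exact (eq_of_relIndex_eq hle (inf_le_left.trans inf_le_left) (e'.symm.trans e)).symm
  · have h2 := eq_of_relIndex_eq inf_le_left inf_le_left ((e.symm.trans e').trans h.a_eq.symm)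
    have h3 : W ≤ N(U ⊓ astab H₁ H₀) := by
      rw [← eq_zpowers_of_prime h.q hw h1, zpowers_le]
      exact mem_norm_of_le_cj (inf_eq_left.1 h2)
    exact le_antisymm (inf_le_left.trans (h.le_C fun v hv => (cj_of_mem_norm (h3 hv)).ge)) hle

theorem exists_cent {x : Γ} (hx : x ∈ H ⊔ (U ⊓ astab H₁ H₀)) : ∃ y ∈ H, y ≠ 1 ∧ x * y = y * x := by
  obtain ⟨l, hl, -⟩ := h.exists_pair
  obtain ⟨i1, i2, i3⟩ := mem_IrrK.1 hl
  have i0 := h.le_Y.trans i2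
  obtain ⟨ψ, j1, -, j3⟩ := h.exists_ind le_rfl h.KM (mem_IrrK.2 ⟨i1, i0, i3⟩) inf_le_left
    ((lin_cinv_iff (h.lin i1 i0) (inf_le_left.trans (h.UM.trans h.nH))).2 (h.comm_C1.trans i2))
    (h.inertia_Y hl).le h.C_le
  have h1 : H ⊓ C[x] ≠ ⊥ := fun e => j1.ne_zero hx (irr_zero_of_reg j1.irr
    (h.HnK.of_le le_sup_left (h.HV_le inf_le_left))
    (fun h' => (mem_IrrK.1 j3).2.2 (le_cker_Ind h.HnK.norm le_sup_left h')) e)
  obtain ⟨y, hy, hy1⟩ := exists_ne_one h1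
  exact ⟨y, hy.1, hy1, (mem_cent1.1 hy.2).symm⟩

/-- (9.11.4) -/
theorem nrm_gamma (hc : ∀ w ∈ W, w ≠ 1 →
    (U ⊓ astab H₁ H₀) ⊓ cj w (U ⊓ astab H₁ H₀) = U ⊓ astab H H₀) :
    nrm M (Ind M (H ⊔ (U ⊓ astab H₁ H₀)) (triv (H ⊔ (U ⊓ astab H₁ H₀)))) =
      a + ((#W : ℝ) - 1) * ((a : ℝ) ^ 2 / (U ⊓ astab H H₀).relIndex U) := by
  have hL := h.L1_normal
  have ha : (a : ℂ) ≠ 0 := h.a_eq ▸ relIndexC_ne _ _
  have hcf : (a : ℂ) • triv (H ⊔ (U ⊓ astab H₁ H₀)) ∈ CF K :=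
    Submodule.smul_mem _ _ (CFon.mono (Res_mem_CFon (cinv_one K) hL.norm) hL.le)
  refine nrm_eq_of_dot ?_
  rw [← Ind_Ind hL.le h.KM, Ind_triv_normal hL, relIndex_sup_sd' h.sdK inf_le_left, h.a_eq,
    dot_Ind_left h.KM _ (cinv_Ind _ _ _), Ind_sdprod h.sdM hcf, dot_sum_right,
    sum_single_add (mem_fin.2 W.one_mem)
      (c := (a : ℂ) ^ 2 / (U ⊓ astab H H₀).relIndex U) fun w hw h1 => ?_]
  · rw [cfj_one, dot_smul_left, dot_smul_right, dot_triv_triv' hL.le, inf_idem,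
      relIndex_sup_sd' h.sdK inf_le_left, h.a_eq, card_fin_sub, nsmul_eq_mul,
      Nat.cast_pred (card_pos W), map_natCast]
    push_cast; field_simp
  · have hw' := inv_mem (mem_fin.1 hw)
    have e1 : cfj w (triv (H ⊔ (U ⊓ astab H₁ H₀))) = triv (H ⊔ cj w⁻¹ (U ⊓ astab H₁ H₀)) := by
      rw [triv, cfj_Res, cj_sup, cj_of_mem_norm (h.nH (h.WM hw'))]; rfl
    have hU : ∀ V ≤ U, U ⊓ (H ⊔ V) = V := fun V hV => by
      rw [inf_comm, sup_inf_modr (hV.trans h.sdK.norm) hV, h.sdK.inf, bot_sup_eq]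
    have e2 : (H ⊔ (U ⊓ astab H₁ H₀)) ⊓ (H ⊔ cj w⁻¹ (U ⊓ astab H₁ H₀)) = H ⊔ (U ⊓ astab H H₀) := by
      rw [sdprod_dedekind h.sdK (le_inf le_sup_left le_sup_left) (inf_le_left.trans hL.le),
        inf_inf_distrib_left, hU _ inf_le_left, hU _ ((h.cjC hw').le.trans inf_le_left),
        hc _ hw' (inv_ne_one.2 h1)]
    rw [map_smul, e1, dot_smul_left, dot_smul_right, dot_triv_triv' hL.le, e2,
      relIndex_sup_sd' h.sdK inf_le_left, map_natCast]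
    ring

end NG

variable {G : Type u} [Group G] [Finite G] [PF8a G] [PF8b G] [PF9a G] [PF2.{u}] [PF4a.{u}]
  [PF4b.{u}] [PF5a.{u, u}] [PF5b.{u}] {M W₁ U W₂ H₀ H₁ : Subgroup G} {p a : ℕ}

theorem coh_nongal (h : P9 M W₁ U W₂ H₀ p) (hn : NonGal M W₁ U H₀ H₁ p a) :
    Coherent M (S9 M (H₀ ⊔ ⁅cU M U H₀, cU M U H₀⁆)) (tauM M) := by
  have hy := hy_of h
  have ng := ng_of h hn
  have hD := (PF8b.pdade h.tp).1
  obtain ⟨R, hR, -⟩ := PF5b.subcoh hD (PF8a.odd M)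
  set S := S9 M (H₀ ⊔ ⁅cU M U H₀, cU M U H₀⁆) with hS
  set q := #W₁ with hq
  set u := (cU M U H₀).relIndex U with hu
  have cS : CSub S (S9 M ⊥) := csub_SInd le_rfl bot_le
  have chr : ∀ χ ∈ S, χ ∈ Chr M := fun χ hχ => sind_chr hy.KM hχ
  have csub : ∀ (P : ℕ → Prop) [DecidablePred P], CSub (S.filter fun χ => P (deg χ)) S := fun P _ =>
    ⟨Finset.filter_subset _ _, fun χ hχ => Finset.mem_filter.2 ⟨cS.star_mem χ (Finset.mem_filter.1 hχ).1,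
      by rw [deg_star (chr χ (Finset.mem_filter.1 hχ).1)]; exact (Finset.mem_filter.1 hχ).2⟩⟩
  have ctr : ∀ {T}, CSub T S → CSub T (S9 M ⊥) := fun hT => ⟨hT.sub.trans cS.sub, hT.star_mem⟩
  have hq3 : 3 ≤ q := (PF4a.W_cyc (pti_of h)).2.2.2.1
  have ha : 0 < a := zero_lt_one.trans hn.one_lt
  have hu0 : 0 < u := relIndex_pos _ _
  obtain ⟨e, he⟩ : a ∣ u := hn.a_eq ▸ relIndex_dvd_left ng.C_le U
  have dle : ∀ χ ∈ S, deg χ ≤ q * u ∧ q * a ∣ deg χ := fun χ hχ => by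
    obtain ⟨θ, hθ, rfl⟩ := mem_SInd.1 hχ
    rw [deg_Ind (irr_chr (irrK_irr hθ)) hy.KM, hy.idxKM]
    refine ⟨Nat.mul_le_mul_left _ ?_, Nat.mul_dvd_mul_left _ (ng.dvd (IrrK_mono le_rfl le_sup_left hθ))⟩
    have := irr_deg_sq_le' (irrK_irr hθ) le_rfl (hy.HV_le inf_le_left)
      (hy.der_HC.trans (mem_IrrK.1 hθ).2.1)
    rw [relIndex_self, mul_one, relIndex_sup_sd' hy.sdK inf_le_left] at this
    exact (Nat.pow_le_pow_iff_left two_ne_zero).1 this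
  have fpos : ∀ χ ∈ S, 0 < (deg χ : ℝ) ^ 2 / nrm M χ := fun χ hχ =>
    div_pos (pow_pos (Nat.cast_pos.2 (sind_deg_pos hy.KM hχ)) 2) (sind_nrm_pos hy.KM hχ)
  have strict : ∀ {T T'}, T ⊆ T' → T' ⊆ S → ∑ χ ∈ T', (deg χ : ℝ) ^ 2 / nrm M χ ≤
      ∑ χ ∈ T, (deg χ : ℝ) ^ 2 / nrm M χ → T = T' := fun {T T'} h1 h2 h3 => by
    by_contra hc
    obtain ⟨χ, i1, i2⟩ := Finset.exists_of_ssubset (Finset.ssubset_iff_subset_ne.2 ⟨h1, hc⟩)
    exact absurd h3 (not_le.2 (Finset.sum_lt_sum_of_subset h1 i1 i2 (fpos χ (h2 i1))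
      fun φ hφ _ => (fpos φ (h2 hφ)).le))
  have mono : ∀ {T T'}, T ⊆ T' → T' ⊆ S → ∑ χ ∈ T, (deg χ : ℝ) ^ 2 / nrm M χ ≤
      ∑ χ ∈ T', (deg χ : ℝ) ^ 2 / nrm M χ := fun h1 h2 =>
    Finset.sum_le_sum_of_subset_of_nonneg h1 fun φ hφ _ => (fpos φ (h2 hφ)).le
  have sirr : ∀ {T : Finset (G → ℂ)} {d : ℕ}, (∀ χ ∈ T, χ ∈ Irr M ∧ deg χ = d) →
      ∑ χ ∈ T, (deg χ : ℝ) ^ 2 / nrm M χ = T.card * (d : ℝ) ^ 2 := fun {T d} hT => by
    rw [← nsmul_eq_mul, ← Finset.sum_const]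
    exact Finset.sum_congr rfl fun χ hχ => by rw [irr_nrm (hT χ hχ).1, (hT χ hχ).2, div_one]
  set S₁ := S.filter fun χ => deg χ = q * a with hS₁
  set S₁' := (S9 M (H₀ ⊔ ⁅U, U⁆)).filter fun χ => χ ∈ Irr M ∧ deg χ = q * a with hS₁'
  have c1 : CSub S₁ S := csub fun n => n = q * a
  have s11 : S₁' ⊆ S₁ := fun χ hχ => Finset.mem_filter.2 ⟨SInd_mono le_rfl
    (sup_le_sup_left (der_mono inf_le_left) _) (Finset.mem_filter.1 hχ).1,
    (Finset.mem_filter.1 hχ).2.2⟩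
  have coh1 : Coherent M S₁ (tauM M) := PF5a.uniform hR (ctr c1) fun χ hχ φ hφ => by
    rw [chr_one_eq_iff (chr χ (c1.sub hχ)) (chr φ (c1.sub hφ)), (Finset.mem_filter.1 hχ).2,
      (Finset.mem_filter.1 hφ).2]
  have h2a := ng.two_a_le
  have cnt : (p - 1) * u ≤ a ^ 2 * S₁'.card := by
    have h1 := ng.count.2
    rw [← card_mul_relIndex (der_le U), ← relIndex_mul_relIndex _ _ _ hy.derU_le inf_le_left] at h1
    refine Nat.le_of_mul_le_mul_left (le_trans ?_ (h1.trans (le_of_eq (by ring)))) (card_pos ⁅U, U⁆)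
    have := relIndex_pos ⁅U, U⁆ (cU M U H₀)
    calc _ = (p - 1) * (#⁅U, U⁆ * (1 * u)) := by ring
      _ ≤ _ := by gcongr; exact this
  obtain ⟨ψ, hψ⟩ : S₁'.Nonempty := by
    rw [← Finset.card_pos]
    refine Nat.pos_of_mul_pos_left (a := a ^ 2) (lt_of_lt_of_le ?_ cnt)
    exact Nat.mul_pos (by omega) hu0
  have dψ : deg ψ = q * a := (Finset.mem_filter.1 hψ).2.2
  have sum1' : ∑ χ ∈ S₁', (deg χ : ℝ) ^ 2 / nrm M χ = S₁'.card * ((q * a : ℕ) : ℝ) ^ 2 :=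
    sirr fun χ hχ => (Finset.mem_filter.1 hχ).2
  by_contra hnc
  -- (9.11.1)
  have step : ∀ T, CSub T S → Coherent M T (tauM M) → ψ ∈ T →
      ∑ χ ∈ T, (deg χ : ℝ) ^ 2 / nrm M χ ≤ 2 * (q * u) * (q * a) := fun T h1 h2 h3 => by
    by_contra hc
    refine hnc (PF5a.ext_all hR h1 cS h2 h3 fun χ hχ _ => ⟨dψ ▸ (dle χ hχ).2, ?_⟩)
    refine lt_of_le_of_lt ?_ (not_le.1 hc)
    have : (deg χ : ℝ) ≤ q * u := by exact_mod_cast (dle χ hχ).1
    rw [dψ]; push_cast; gcongr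
  have b1 := step S₁ c1 coh1 (s11 hψ)
  have b2 : S₁'.card * a ≤ 2 * u := by
    have := (sum1'.ge.trans (mono s11 c1.sub)).trans b1
    refine Nat.le_of_mul_le_mul_left ?_ (Nat.mul_pos (pow_pos (zero_lt_three.trans_le hq3) 2) ha)
    rw [← Nat.cast_le (α := ℝ)]
    push_cast at this ⊢
    linarith
  have hp : p = 2 * a + 1 := by
    have : (p - 1) * u ≤ 2 * a * u := cnt.trans (by nlinarith)
    have := Nat.le_of_mul_le_mul_right this hu0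
    have := h.prime.pos
    omega
  have card1 : S₁'.card = 2 * e := by
    rw [hp, Nat.add_sub_cancel, he] at cnt
    rw [he] at b2
    refine le_antisymm (Nat.le_of_mul_le_mul_right (b2.trans (le_of_eq (by ring))) ha)
      (Nat.le_of_mul_le_mul_left (le_trans (le_of_eq (by ring)) cnt) (pow_pos ha 2))
  have sum1 : ∑ χ ∈ S₁', (deg χ : ℝ) ^ 2 / nrm M χ = 2 * (q * u) * (q * a) := by
    rw [sum1', card1, he]; push_cast; ring
  have e11 : S₁' = S₁ := strict s11 c1.sub (b1.trans sum1.ge)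
  have he1 : 1 < e := by
    rcases e with _ | _ | e
    · omega
    · refine absurd ?_ hnc
      rwa [← Finset.filter_true_of_mem (s := S) (p := fun χ => deg χ = q * a) fun χ hχ => le_antisymm
        (by simpa [he] using (dle χ hχ).1) (Nat.le_of_dvd (sind_deg_pos hy.KM hχ) (dle χ hχ).2)]
    · omega
  have hau : q * a < q * u := by rw [he]; exact Nat.mul_lt_mul_of_pos_left (by nlinarith) (by omega)
  have dich : ∀ χ ∈ S, deg χ = q * u ∨ deg χ = q * a := by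
    have c2 : CSub (S.filter fun χ => deg χ ≠ q * u) S := csub fun n => n ≠ q * u
    have s12 : S₁ ⊆ S.filter fun χ => deg χ ≠ q * u := fun χ hχ => Finset.mem_filter.2
      ⟨c1.sub hχ, (Finset.mem_filter.1 hχ).2 ▸ hau.ne⟩
    have coh2 := PF5a.ext_all hR ⟨s12, c1.star_mem⟩ (ctr c2) coh1 (s11 hψ) fun χ hχ _ =>
      ⟨dψ ▸ (dle χ (c2.sub hχ)).2, by
        have : (deg χ : ℝ) < q * u := by
          exact_mod_cast lt_of_le_of_ne (dle χ (c2.sub hχ)).1 (Finset.mem_filter.1 hχ).2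
        have h3 : (0 : ℝ) < q * a := by positivity
        rw [← e11, sum1, dψ]; push_cast; gcongr⟩
    have := strict s12 c2.sub ((step _ c2 coh2 (s12 (s11 hψ))).trans (by rw [← e11, sum1]))
    intro χ hχ
    refine or_iff_not_imp_left.2 fun h' => (Finset.mem_filter.1 (?_ : χ ∈ S₁)).2
    rw [this]; exact Finset.mem_filter.2 ⟨hχ, h'⟩
  -- (9.11.2)
  have ti : ∀ w ∈ W₁, w ≠ 1 → (U ⊓ astab H₁ H₀) ⊓ cj w (U ⊓ astab H₁ H₀) = cU M U H₀ :=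
    fun w hw h1 => ng.inf_cj_eq (fun θ hθ => by
      have := dich _ (Ind_mem_SInd (IrrK_mono le_rfl (sup_le_sup_left (der_le _) _) hθ))
      rw [deg_Ind (irr_chr (irrK_irr hθ)) hy.KM, hy.idxKM] at this
      exact this.imp (Nat.eq_of_mul_eq_mul_left (by omega)) (Nat.eq_of_mul_eq_mul_left (by omega)))
      hw h1
  have ua : u ≤ a * a := by
    obtain ⟨w, hw, h1⟩ := exists_ne_one hy.W_ne
    have := relIndex_inf_le (H := U ⊓ astab H₁ H₀) (K := cj w (U ⊓ astab H₁ H₀)) (L := U)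
    rwa [ti w hw h1, hn.a_eq, ng.idx_cjC hw] at this
  set S₃ := S.filter fun χ => deg χ = q * u with hS₃
  have c3 : CSub S₃ S := csub fun n => n = q * u
  have eS : S₃ ∪ S₁ = S := Finset.Subset.antisymm (Finset.union_subset c3.sub c1.sub) fun χ hχ =>
    Finset.mem_union.2 ((dich χ hχ).imp (fun e => Finset.mem_filter.2 ⟨hχ, e⟩)
      fun e => Finset.mem_filter.2 ⟨hχ, e⟩)
  have hA : tA M ⊆ tA0 M := hD.A0_eq ▸ Set.subset_union_left
  have hL := (hy.HV_le (inf_le_left : U ⊓ astab H₁ H₀ ≤ U)).trans hy.KM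
  have hγ := chr_Ind (triv_mem_Chr _) hL
  refine hnc (eS ▸ coh_final hR (ctr c1) (ctr c3) (fun α hα β hβ => PF2.isom hD.dd hα hβ)
    (fun α hα hz => PF2.zirr hD.dd hα hz)
    (fun χ hχ => CFon.mono (PF4b.supp_ind hD hχ) (Set.insert_subset_insert hA))
    (CFon.mono (A := insert 1 (tA M)) (Ind_mem_CFon ?_ ?_) (Set.insert_subset_insert hA))
    (chr_zirr hγ) (fun χ hχ => dot_sind_of_ker hy.KM hy.HK hγ
      (le_cker_Ind hy.nH le_sup_left (by rw [cker_triv]; exact le_sup_left)) hχ) he1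
    (Nat.mul_pos (zero_lt_three.trans_le hq3) ha) ?_ (fun χ hχ => (Finset.mem_filter.1 hχ).2)
    (fun χ hχ => by rw [(Finset.mem_filter.1 hχ).2, he]; ring)
    (fun χ hχ => (Finset.mem_filter.1 (e11 ▸ hχ : χ ∈ S₁')).2.1) (e11 ▸ card1) ?_)
  · rintro y hy' x (rfl | hx)
    · simp
    · exact Or.inr (hD.A_conj y hy' x hx)
  · intro x hx hx'
    obtain ⟨y, i1, i2, i3⟩ := ng.exists_cent hx
    exact absurd (Or.inr (hD.A_sup x (hy.HV_le inf_le_left hx) (fun e => hx' (Or.inl e)) y i1 i2 i3))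
      hx'
  · rw [Ind_one hL, triv_one, mul_one, hy.idx_HV inf_le_left, hn.a_eq]
  · -- (9.11.3), (9.11.5)
    rw [ng.nrm_gamma ti, ← hu, ← hq]
    by_contra hc
    have t1 := sum_S9 h (der_le _) (norms_der hy.UW_norm_C)
    rw [← relIndex_mul_relIndex _ _ _ (der_le (cU M U H₀)) inf_le_left, ← hS, ← hu, ← hq,
      ← Finset.sum_filter_add_sum_filter_not S (· ∈ Irr M)] at t1
    have t2 := sum_red_le h (T := S.filter (· ∉ Irr M)) ((Finset.filter_subset _ _).trans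
      (SInd_mono le_rfl le_sup_left)) fun χ hχ => (Finset.mem_filter.1 hχ).2
    have t3 : ∑ χ ∈ S.filter (· ∈ Irr M), (deg χ : ℝ) ^ 2 / nrm M χ ≤
        (S₃.filter (· ∈ Irr M)).card * ((q * u : ℕ) : ℝ) ^ 2 + 2 * (q * u) * (q * a) := by
      rw [← sirr (T := S₃.filter (· ∈ Irr M)) fun χ hχ => ⟨(Finset.mem_filter.1 hχ).2,
        (Finset.mem_filter.1 (Finset.mem_filter.1 hχ).1).2⟩, ← sum1, e11]
      refine le_trans (mono (T' := S₃.filter (· ∈ Irr M) ∪ S₁) (fun χ hχ => ?_)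
        (Finset.union_subset ((Finset.filter_subset _ _).trans c3.sub) c1.sub)) ?_
      · obtain ⟨i1, i2⟩ := Finset.mem_filter.1 hχ
        exact Finset.mem_union.2 ((dich χ i1).imp (fun e => Finset.mem_filter.2
          ⟨Finset.mem_filter.2 ⟨i1, e⟩, i2⟩) fun e => Finset.mem_filter.2 ⟨i1, e⟩)
      · rw [← Finset.sum_union_inter, le_add_iff_nonneg_right]
        exact Finset.sum_nonneg fun χ hχ => (fpos χ (c1.sub (Finset.mem_inter.1 hχ).2)).le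
    have t4 : ((1 + 2 * q * a + q ^ 2 * a ^ 2 + (q + 2) * a ^ 3 : ℕ) : ℝ) < ((2 * a + 1) ^ q : ℕ) :=
      Nat.cast_lt.2 (binom_lt ha hq3)
    have t5 : (1 : ℝ) ≤ ⁅cU M U H₀, cU M U H₀⁆.relIndex (cU M U H₀) :=
      Nat.one_le_cast.2 (relIndex_pos _ _)
    have t6 : (u : ℝ) ≤ a * a := by exact_mod_cast ua
    have t7 : (0 : ℝ) < u := Nat.cast_pos.2 hu0
    have t8 : (3 : ℝ) ≤ q := by exact_mod_cast hq3
    have t9 : (0 : ℝ) < a := Nat.cast_pos.2 ha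
    rw [← hu, ← hq, hp] at t2
    rw [hp] at t1
    push_cast at t1 t2 t3 t4
    generalize ((2 * a + 1 : ℝ)) ^ q = P at t1 t4
    generalize ((S₃.filter (· ∈ Irr M)).card : ℝ) = m at hc t3
    generalize (⁅cU M U H₀, cU M U H₀⁆.relIndex (cU M U H₀) : ℝ) = c at t1 t5
    have hP : (0 : ℝ) ≤ P - 1 := by nlinarith [pow_pos t9 2, pow_pos t9 3]
    have r1 : (q * u) * (P - 1) ≤ (q * u) * (2 * a * u + m * (q * u) + 2 * q * a) := by
      have : q * ((P - 1) * (1 * u)) ≤ q * ((P - 1) * (c * u)) := by gcongr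
      nlinarith
    have r2 := le_of_mul_le_mul_left r1 (by positivity)
    have r3 : m * u ≤ (a + 1) * u + (q - 1) * a ^ 2 := by
      have := mul_le_mul_of_nonneg_right (not_lt.1 hc) t7.le
      rwa [add_right_comm, add_mul _ _ (u : ℝ), mul_assoc, div_mul_cancel₀ _ t7.ne'] at this
    have r4 : q * (m * u) ≤ q * ((a + 1) * (a * a) + (q - 1) * a ^ 2) := by gcongr; nlinarith
    nlinarith [mul_le_mul_of_nonneg_left t6 t9.le]

instance inst_PF9c : PF9c G where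
  coh {M W₁ U W₂ H₀ p} h := by
    rcases PF9a.cases h with hg | ⟨H₁, a, hn⟩
    · obtain ⟨R, hR, -⟩ := PF5b.subcoh (PF8b.pdade h.tp).1 (PF8a.odd M)
      exact PF5a.uniform hR (csub_SInd le_rfl bot_le) fun χ hχ φ hφ => by
        rw [LinInd.deg h ((gal_deg h hg).2 χ hχ), LinInd.deg h ((gal_deg h hg).2 φ hφ)]
    · exact coh_nongal h hn

end H2.PF
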