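/-
S5855, chunk PG: TZ (translations force an orbit of length `p = 7`).
-/
import Cfsg.Agent.H4.PG0

set_option autoImplicit false
set_option linter.unusedSectionVars false
set_option linter.unusedVariables false

open Module

namespace H2.PG
open H4.PG

theorem syl {G : Type*} [Group G] [Finite G] {p : ℕ} [Fact p.Prime] {P Q S : Subgroup G}
    (hP : IsPGroup p P) (hQ : IsPGroup p Q) (QS : Q ≤ S) (hi : ¬ p ∣ P.relIndex S) :
    ∃ s ∈ S, ∀ y ∈ Q, s * y * s⁻¹ ∈ P := by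
  obtain ⟨R, hR⟩ := (hQ.comap_subtype (K := S)).exists_le_sylow
  obtain ⟨s, hs⟩ := MulAction.exists_smul_eq S R ((hP.comap_subtype (K := S)).toSylow hi)
  refine ⟨s, s.2, fun y hy => ?_⟩
  have h1 : MulAut.conj s • (⟨y, QS hy⟩ : S) ∈ ((s • R : Sylow p S) : Subgroup S) :=
    Subgroup.smul_mem_pointwise_smul _ _ _ (hR hy)
  rw [hs] at h1
  exact h1

variable {F : Type*} [Field F] [Fintype F] {σ : F →+* F} {q : ℕ}
variable {V : Type*} [AddCommGroup V] [Module F V] [Finite V]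

/-- invariant sets are unions of orbits -/
theorem dv (H : Subgroup (V ≃ₗ[F] V)) (n : ℕ) : ∀ (k : ℕ) (D : Set V), D.ncard = k →
    (∀ g ∈ H, ∀ x ∈ D, g x ∈ D) → (∀ x ∈ D, n ∣ {y | ∃ g ∈ H, g x = y}.ncard) → n ∣ D.ncard := by
  intro k
  induction k using Nat.strong_induction_on with
  | _ k ih =>
    intro D hk hi hn
    rcases D.eq_empty_or_nonempty with rfl | ⟨x, hx⟩
    · simp
    have hs : {y | ∃ g ∈ H, g x = y} ⊆ D := by rintro _ ⟨g, hg, rfl⟩; exact hi g hg x hx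
    have h1 := Set.ncard_sdiff_add_ncard_of_subset hs
    have h2 : 0 < {y | ∃ g ∈ H, g x = y}.ncard := (Set.ncard_pos).2 ⟨x, 1, one_mem H, rfl⟩
    rw [← h1]
    refine dvd_add (ih _ (by omega) _ rfl (fun g hg y hy => ⟨hi g hg y hy.1, ?_⟩)
      fun y hy => hn y hy.1) (hn x hx)
    rintro ⟨g', hg', e⟩
    exact hy.2 ⟨g⁻¹ * g', mul_mem (inv_mem hg) hg', by simp [e]⟩

theorem orb_pow {p : ℕ} [Fact p.Prime] {U : Subgroup (V ≃ₗ[F] V)} (hU : IsPGroup p U) (x : V)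
    (hx : ¬ ∀ g ∈ U, g x = x) : ∃ k, {y | ∃ g ∈ U, g x = y}.ncard = p ^ (k + 1) := by
  have e : {y | ∃ g ∈ U, g x = y} = MulAction.orbit U x := Set.ext fun y =>
    ⟨fun ⟨g, hg, e⟩ => ⟨⟨g, hg⟩, e⟩, fun ⟨g, e⟩ => ⟨g, g.2, e⟩⟩
  obtain ⟨k, hk⟩ := hU.card_orbit x
  rw [Nat.card_coe_set_eq, ← e] at hk
  cases k with
  | zero =>
    obtain ⟨z, hz⟩ := Set.ncard_eq_one.1 hk
    refine absurd (fun g hg => ?_) hx
    have h1 : g x ∈ ({z} : Set V) := hz ▸ ⟨g, hg, rfl⟩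
    have h2 : x ∈ ({z} : Set V) := hz ▸ ⟨1, one_mem U, rfl⟩
    exact h1.trans h2.symm
  | succ k => exact ⟨k, hk⟩

theorem card_mu (h : FD σ q) : {c : F | c ^ (q + 1) = 1}.ncard = q + 1 := by
  classical
  have h1 := IsCyclic.card_powMonoidHom_ker (G := Fˣ) (q + 1)
  have h2 : Nat.card Fˣ = (q + 1) * (q - 1) := by
    rw [Nat.card_units, Nat.card_eq_fintype_card, h.hF, ← Nat.sq_sub_sq q 1, one_pow]
  rw [h2, Nat.gcd_mul_right_left] at h1
  refine Eq.trans ?_ h1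
  rw [← Nat.card_coe_set_eq]
  refine (Nat.card_congr (Equiv.ofBijective
    (fun x : (powMonoidHom (q + 1) : Fˣ →* Fˣ).ker => (⟨x.1, ?_⟩ : {c : F | c ^ (q + 1) = 1}))
      ⟨fun x y e => Subtype.ext (Units.ext (congrArg Subtype.val e)), fun c => ?_⟩)).symm
  · exact (Units.val_pow_eq_pow_val _ _).symm.trans (congrArg Units.val (show x.1 ^ (q + 1) = 1 from x.2))
  · have h0 : c.1 ≠ 0 := fun e => by simpa [e] using c.2
    exact ⟨⟨Units.mk0 _ h0, Units.ext ((Units.val_pow_eq_pow_val _ _).trans c.2)⟩, rfl⟩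

theorem arith {p q j k m a b A : ℕ} (hp : p.Prime) (hq : q = p ^ j) (q2 : 2 ≤ q) (k0 : k ≠ 0)
    (hm : m * Nat.gcd 11 (q + 1) = q ^ 11 + 1) (hb : b = m * (q ^ 10 - 1) * k)
    (hl : 2 * b ≤ (q ^ 11 + 1) * (q ^ 10 - 1)) (ha : 2 * a + (q + 1) = (q + 1) * A) (hA : p ∣ A)
    (hA' : A = p ∨ p ^ 2 ∣ A) (h1 : (p : ℤ) ∣ b - a) :
    5 ≤ p ∧ p ^ 2 ≤ q ∧ ¬ ((p : ℤ) ^ 2 ∣ b - a) := by
  have p10 : 1 < q ^ 10 := Nat.one_lt_pow (by norm_num) q2
  have m0 : 0 < m := Nat.pos_of_ne_zero (by rintro rfl; omega)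
  have hk : 2 * k ≤ Nat.gcd 11 (q + 1) := by
    rw [← hm, hb] at hl
    exact Nat.le_of_mul_le_mul_left (show m * (q ^ 10 - 1) * _ ≤ m * (q ^ 10 - 1) * _ by linarith)
      (Nat.mul_pos m0 (by omega))
  have hg : Nat.gcd 11 (q + 1) = 11 :=
    ((Nat.dvd_prime (by norm_num)).1 (Nat.gcd_dvd_left 11 (q + 1))).resolve_left (by omega)
  have h11 : 11 ∣ q + 1 := hg ▸ Nat.gcd_dvd_right 11 (q + 1)
  rw [hg] at hm hk
  have e : (22 : ℤ) * (b - a) = q * (2 * k * (q ^ 20 - q ^ 10 + q ^ 9) - 11 * (A - 1)) - 11 * A +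
      (11 - 2 * k) := by
    have e1 : (b : ℤ) = m * (q ^ 10 - 1) * k := by rw [hb]; push_cast [p10.le]; rfl
    have e2 : (m : ℤ) * 11 = q ^ 11 + 1 := by exact_mod_cast hm
    have e3 : (2 * a + (q + 1) : ℤ) = (q + 1) * A := by exact_mod_cast ha
    rw [e1]
    linear_combination 2 * k * (q ^ 10 - 1) * e2 - 11 * e3
  have j0 : j ≠ 0 := by rintro rfl; rw [pow_zero] at hq; omega
  have pq : (p : ℤ) ∣ q := by rw [hq]; exact_mod_cast dvd_pow_self p j0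
  have d1 : (p : ℤ) ∣ 11 - 2 * k := by
    have := h1.mul_left 22
    rw [e] at this
    exact (dvd_add_right ((pq.mul_right _).sub ((Int.natCast_dvd_natCast.2 hA).mul_left 11))).1 this
  have no : ∀ r : ℕ, (∀ i < 5, (r ^ i + 1) % 11 ≠ 0) → r ^ 5 % 11 = 1 → p ≠ r := by
    rintro r h5 h6 rfl
    refine h5 (j % 5) (Nat.mod_lt _ (by norm_num)) ?_
    rw [hq, ← Nat.div_add_mod j 5, pow_add, pow_mul] at h11
    have : (p ^ 5) ^ (j / 5) % 11 = 1 := by rw [Nat.pow_mod, h6]; simp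
    rw [Nat.dvd_iff_mod_eq_zero, Nat.add_mod, Nat.mul_mod, this] at h11
    rw [Nat.add_mod]
    simpa using h11
  have n3 := no 3 (by decide) (by decide)
  have n5 := no 5 (by decide) (by decide)
  have d2 : p ∣ 11 - 2 * k := Int.natCast_dvd_natCast.1 (by push_cast [hk]; exact d1)
  have p7 : p = 7 ∧ k = 2 := by
    have h9 : p ≤ 11 - 2 * k := Nat.le_of_dvd (by omega) d2
    have := hp.two_le
    have k5 : k ≤ 5 := by omega
    have p9 : p ≤ 9 := by omega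
    interval_cases k <;> interval_cases p <;> simp_all (config := {decide := true})
  obtain ⟨rfl, rfl⟩ := p7
  have j2 : 2 ≤ j := by
    by_contra hj
    obtain rfl : j = 1 := by omega
    omega
  have pq2 : 7 ^ 2 ∣ q := hq ▸ pow_dvd_pow 7 j2
  refine ⟨by norm_num, Nat.le_of_dvd (by omega) pq2, fun h2 => ?_⟩
  have := h2.mul_left 22
  rw [e, sub_add_eq_add_sub, add_sub_assoc] at this
  have h3 := (dvd_add_right (Dvd.dvd.mul_right (by exact_mod_cast pq2) _)).1 this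
  omega

variable {f : V →ₗ[F] V →ₛₗ[σ] F} {U : Subgroup (V ≃ₗ[F] V)} {W : Submodule F V} {u : V}

/-- the fixed translation vectors -/
def AA (h : VS q f U W u) : AddSubgroup V where
  carrier := {a | (∃ t ∈ U, (∀ x ∈ W, t x = x) ∧ t u - u = a) ∧ ∀ g ∈ U, g a = a}
  zero_mem' := ⟨⟨1, one_mem U, fun _ _ => rfl, sub_self u⟩, fun g _ => map_zero g⟩
  add_mem' := by
    rintro _ _ ⟨⟨t, ht, t1, rfl⟩, a⟩ ⟨⟨s, hs, s1, rfl⟩, b⟩
    refine ⟨⟨t * s, mul_mem ht hs, fun x hx => by simp [t1 x hx, s1 x hx], ?_⟩,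
      fun g hg => by rw [map_add, a g hg, b g hg]⟩
    rw [← b t ht, map_sub]; simp
  neg_mem' := by
    rintro _ ⟨⟨t, ht, t1, rfl⟩, a⟩
    refine ⟨⟨t⁻¹, inv_mem ht, fun x hx => ?_, ?_⟩, fun g hg => by rw [map_neg, a g hg]⟩
    · exact t.injective (by simp [t1 x hx])
    · rw [← a _ (inv_mem ht), map_sub]; simp

theorem tz (h : VS q f U W u) (wu : WU f U W) (sc : SC σ U W u) : TZ σ q f U W u := by
  classical
  intro J m hσ UJ iso hi sca hm hd hn ⟨t, ht, t1, t2, t3⟩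
  have pp : (ringChar F).Prime := CharP.char_is_prime F _
  have := Fact.mk pp
  have : Finite (V ≃ₗ[F] V) := Finite.of_injective _ DFunLike.coe_injective
  have h2 : (2 : F) ≠ 0 := fun e => t2 (sc.2 e t ht t1)
  have r2 : ringChar F ≠ 2 := fun e => h2 (by exact_mod_cast (ringChar.spec F 2).2 (e ▸ dvd_rfl))
  have AW : ∀ a ∈ AA h, a ∈ W := by rintro _ ⟨⟨s, hs, -, rfl⟩, -⟩; exact h.gu s hs
  have sct : ∀ a ∈ AA h, a ≠ 0 → ∀ l : F, l • a ∈ AA h → σ l = l := by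
    rintro _ ⟨⟨s, hs, s1, rfl⟩, -⟩ a0 l ⟨⟨s', hs', s2, e⟩, -⟩
    exact (sc.1 s hs s' hs' l s1 s2 e).resolve_right fun e => a0 (sub_eq_zero.2 e)
  obtain ⟨𝒜, h𝒜⟩ : ∃ 𝒜 : Set V, ∀ x, x ∈ 𝒜 ↔
    ∃ c : F, c ^ (q + 1) = 1 ∧ ∃ a ∈ AA h, a ≠ 0 ∧ c • a = x := ⟨{x | _}, fun _ => Iff.rfl⟩
  obtain ⟨B, hB⟩ : ∃ B : Set V, ∀ x, x ∈ B ↔ ∃ g ∈ J, ∃ a ∈ AA h, a ≠ 0 ∧ g a = x :=
    ⟨{x | _}, fun _ => Iff.rfl⟩
  have BJ : ∀ g ∈ J, ∀ x ∈ B, g x ∈ B := fun g hg x hx => by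
    obtain ⟨k, hk, a, ha, a0, rfl⟩ := (hB x).1 hx
    exact (hB _).2 ⟨g * k, mul_mem hg hk, a, ha, a0, rfl⟩
  have c0 : ∀ c : F, c ^ (q + 1) = 1 → c ≠ 0 := by rintro c hc rfl; simp at hc
  -- fixed points in `B`
  have fx : ∀ x, x ∈ 𝒜 ↔ x ∈ B ∧ ∀ g ∈ U, g x = x := by
    refine fun x => ⟨fun hx => ?_, fun ⟨hx, hf⟩ => ?_⟩
    · obtain ⟨c, hc, a, ha, a0, rfl⟩ := (h𝒜 x).1 hx
      obtain ⟨g, hg, e⟩ := sca c hc
      exact ⟨(hB _).2 ⟨g, hg, a, ha, a0, e a⟩, fun k hk => by rw [map_smul, ha.2 k hk]⟩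
    obtain ⟨g, hg, a, ha, a0, e⟩ := (hB x).1 hx
    obtain ⟨s, hs, hs'⟩ := syl (P := U) (Q := U.map (MulAut.conj g).toMonoidHom)
      (S := J ⊓ MulAction.stabilizer _ x) h.pg (h.pg.map _) (by
        rintro _ ⟨k, hk, rfl⟩
        refine ⟨J.mul_mem (J.mul_mem hg (UJ hk)) (J.inv_mem hg), ?_⟩
        change g (k (g⁻¹ x)) = x
        rw [← e]; simp [ha.2 k hk]) fun d => hi (d.trans (Dvd.intro _
          (Subgroup.relIndex_mul_relIndex U _ J (fun k hk => ⟨UJ hk, hf k hk⟩) inf_le_left)))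
    obtain ⟨n, hn⟩ : ∃ n, n = s * g := ⟨_, rfl⟩
    have nJ : n ∈ J := hn ▸ mul_mem hs.1 hg
    have na : n a = x := by rw [hn, LinearEquiv.mul_apply, e]; exact hs.2
    have nN : n ∈ Subgroup.normalizer (U : Set (V ≃ₗ[F] V)) :=
      Subgroup.mem_normalizer_fintype fun k hk => by
        simpa [hn, mul_assoc] using hs' _ ⟨k, hk, rfl⟩
    have nW : ∀ y ∈ W, n⁻¹ y ∈ W := fun y hy => wu (W.map (n⁻¹ : V ≃ₗ[F] V).toLinearMap) (by
      rintro _ ⟨y, hy, rfl⟩ _ ⟨z, hz, rfl⟩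
      exact (iso _ (inv_mem nJ) y z).trans (h.ww y hy z hz)) (by
      rintro k hk _ ⟨y, hy, rfl⟩
      exact ⟨_, h.iw _ ((nN k).1 hk) y hy, by simp⟩) ⟨y, hy, rfl⟩
    obtain ⟨w, hw, c, ec⟩ := h.pp (n u) fun y hy => by
      rw [← iso _ (inv_mem nJ), h.wu _ (nW y hy) |>.symm]; simp
    have hc : c ^ (q + 1) = 1 := by
      have := iso n nJ u u
      rw [ec] at this
      simp only [map_add, LinearMap.add_apply, map_smul, LinearMap.smul_apply, map_smulₛₗ,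
        h.ww w hw w hw, h.wu w hw, h.sy w u, map_zero, smul_eq_mul] at this
      rw [hσ] at this
      exact mul_right_cancel₀ h.nu (by linear_combination this)
    obtain ⟨⟨r, hr, r1, rfl⟩, -⟩ := ha
    have r2 : ∀ y ∈ W, (n * r * n⁻¹) y = y := fun y hy => by
      rw [LinearEquiv.mul_apply, LinearEquiv.mul_apply, r1 _ (nW y hy)]; simp
    have ex : c • ((n * r * n⁻¹) u - u) = x := by
      have : (n * r * n⁻¹) (n u) = n (r u) := by simp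
      rw [← na, map_sub, ← this, ec, map_add, r2 w hw, map_smul, smul_sub]; abel
    refine (h𝒜 x).2 ⟨c, hc, _, ⟨⟨_, (nN r).1 hr, r2, rfl⟩, fun k hk => ?_⟩, fun e0 => a0 ?_, ex⟩
    · exact smul_right_injective V (c0 c hc) (by simp only; rw [← map_smul, ex, hf k hk])
    · rw [e0, smul_zero, ← na] at ex
      exact n.map_eq_zero_iff.1 ex.symm
  have Bi : ∀ x ∈ B, x ≠ 0 ∧ f x x = 0 := fun x hx => by
    obtain ⟨g, hg, a, ha, a0, rfl⟩ := (hB x).1 hx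
    exact ⟨g.map_ne_zero_iff.2 a0, (iso g hg a a).trans (h.ww a (AW a ha) a (AW a ha))⟩
  obtain ⟨k, hk⟩ := dv J _ _ B rfl BJ fun x hx => hd x (Bi x hx).1 (Bi x hx).2
  have a0 : t u - u ∈ AA h := ⟨⟨t, ht, t1, rfl⟩, t3⟩
  have k0 : k ≠ 0 := by
    rintro rfl
    exact ((Set.ncard_pos).2 ⟨_, (hB _).2 ⟨1, one_mem J, _, a0, sub_ne_zero.2 t2, rfl⟩⟩).ne' hk
  obtain ⟨n, -, hn'⟩ := FiniteField.card F (ringChar F)
  obtain ⟨j, -, hj⟩ := (Nat.dvd_prime_pow pp).1 (hn' ▸ h.hF ▸ dvd_pow_self q two_ne_zero)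
  -- the non-square multiple of `B`
  obtain ⟨l, hl⟩ := FiniteField.exists_nonsquare r2
  have l0 : l ≠ 0 := by rintro rfl; exact hl IsSquare.zero
  have dj : Disjoint B ((l • ·) '' B) := Set.disjoint_left.2 (by
    rintro _ hy ⟨x, hx, rfl⟩
    obtain ⟨g, hg, a, ha, a0, rfl⟩ := (hB x).1 hx
    obtain ⟨c, hc, b, hb, -, e⟩ := (h𝒜 _).1 ((fx (l • a)).2
      ⟨by simpa using BJ _ (inv_mem hg) _ hy, fun k hk => by rw [map_smul, ha.2 k hk]⟩)
    have hr := sct a ha a0 (c⁻¹ * l) (by rwa [mul_smul, ← e, inv_smul_smul₀ (c0 c hc)])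
    obtain ⟨i, hi⟩ : Odd q := hj ▸ (pp.odd_of_ne_two r2).pow
    have r1 : (c⁻¹ * l) ^ (2 * i) = 1 := mul_right_cancel₀ (mul_ne_zero (inv_ne_zero (c0 c hc)) l0)
      (by rw [← pow_succ, ← hi, ← hσ, hr, one_mul])
    refine hl ((FiniteField.isSquare_iff r2 l0).2 ?_)
    have e1 : Fintype.card F / 2 = (q + 1) * i := by
      rw [h.hF, hi, show (2 * i + 1) ^ 2 = 2 * ((2 * i + 1 + 1) * i) + 1 by ring]; omega
    rw [e1, ← mul_inv_cancel_left₀ (c0 c hc) l, mul_pow, pow_mul, hc, one_pow, one_mul, hi,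
      show (2 * i + 1 + 1) * i = 2 * i * (i + 1) by ring, pow_mul, r1, one_pow])
  have hle : 2 * B.ncard ≤ (q ^ 11 + 1) * (q ^ 10 - 1) := by
    refine le_trans ?_ ((Set.ncard_le_ncard (s := B ∪ (l • ·) '' B) ?_).trans hn)
    · rw [Set.ncard_union_eq dj, Set.ncard_image_of_injective _ (smul_right_injective V l0), two_mul]
    · rintro y (hy | ⟨x, hx, rfl⟩)
      · exact Bi y hy
      · exact ⟨smul_ne_zero l0 (Bi x hx).1, by simp [(Bi x hx).2]⟩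
  -- the order of `𝒜`
  have cA : 2 * 𝒜.ncard + (q + 1) = (q + 1) * Nat.card (AA h) := by
    let P : Finset (F × V) := ({c : F | c ^ (q + 1) = 1} ×ˢ ((AA h : Set V) \ {0})).toFinite.toFinset
    have e1 := Finset.card_eq_sum_card_fiberwise (s := P) (t := 𝒜.toFinite.toFinset)
      (f := fun x => x.1 • x.2) fun x hx => by
        have hx := (Set.Finite.mem_toFinset _).1 hx
        exact (Set.Finite.mem_toFinset _).2 ((h𝒜 _).2 ⟨_, hx.1, _, hx.2.1, hx.2.2, rfl⟩)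
    rw [Finset.sum_congr rfl (g := fun _ => 2) fun x hx => ?_, Finset.sum_const,
      ← Set.ncard_eq_toFinset_card, ← Set.ncard_eq_toFinset_card, Set.ncard_prod, card_mu h.toFD,
      smul_eq_mul, mul_comm _ 2] at e1
    · rw [← e1, ← mul_add_one, Set.ncard_sdiff_singleton_add_one (AA h).zero_mem]; rfl
    obtain ⟨c, hc, a, ha, a0, rfl⟩ := (h𝒜 x).1 ((Set.Finite.mem_toFinset _).1 hx)
    obtain ⟨i, hi⟩ : Odd q := hj ▸ (pp.odd_of_ne_two r2).pow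
    refine Finset.card_eq_two.2 ⟨(c, a), (-c, -a), fun e => h2 (mul_right_cancel₀ (c0 c hc)
      (by linear_combination congrArg Prod.fst e)), Finset.ext fun y => ?_⟩
    simp only [P, Finset.mem_filter, Set.Finite.mem_toFinset, Finset.mem_insert, Finset.mem_singleton]
    refine ⟨fun ⟨⟨y1, y2, _⟩, e⟩ => ?_, ?_⟩
    · have e2 : y.2 = (y.1⁻¹ * c) • a := by rw [mul_smul, ← e, inv_smul_smul₀ (c0 _ y1)]
      have e3 := sct a ha a0 _ (e2 ▸ y2)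
      have e4 : (y.1⁻¹ * c) * (y.1⁻¹ * c) = 1 := by
        nth_rw 1 [← e3]
        rw [hσ, ← pow_succ, mul_pow, inv_pow, y1, hc, inv_one, one_mul]
      rcases mul_self_eq_one_iff.1 e4 with e5 | e5
      · exact .inl (Prod.ext (by rw [← mul_inv_cancel_left₀ (c0 _ y1) c, e5, mul_one])
          (by rw [e2, e5, one_smul]))
      · exact .inr (Prod.ext (by rw [← mul_inv_cancel_left₀ (c0 _ y1) c, e5]; simp)
          (by rw [e2, e5, neg_one_smul]))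
    · rintro (rfl | rfl)
      · exact ⟨⟨hc, ha, a0⟩, rfl⟩
      · exact ⟨⟨by rw [Set.mem_ofPred_eq, Even.neg_pow ⟨i + 1, by omega⟩, hc], neg_mem ha,
          neg_ne_zero.2 a0⟩, by simp⟩
  obtain ⟨i, hA⟩ : ∃ i, Nat.card (AA h) = ringChar F ^ i :=
    (IsPGroup.iff_card (G := Multiplicative (AA h))).1 fun g => ⟨1, by
      rw [pow_one, ← ofAdd_toAdd g, ← ofAdd_nsmul, ofAdd_eq_one]
      exact Subtype.ext (by simp [← Nat.cast_smul_eq_nsmul F])⟩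
  have i0 : i ≠ 0 := by
    rintro rfl
    exact t2 (sub_eq_zero.1 (by simpa [AddSubgroup.card_eq_one.1 hA] using a0))
  have cg : ∀ n : ℕ, (∀ x, (¬ ∀ g ∈ U, g x = x) → n ∣ {y | ∃ g ∈ U, g x = y}.ncard) →
      (n : ℤ) ∣ B.ncard - 𝒜.ncard := fun n hn => by
    rw [← Set.ncard_sdiff_add_ncard_of_subset (fun x hx => ((fx x).1 hx).1 : 𝒜 ⊆ B), Nat.cast_add,
      add_sub_cancel_right, Int.natCast_dvd_natCast]
    refine dv U n _ _ rfl (fun g hg x hx => ⟨BJ g (UJ hg) x hx.1, fun e => hx.2 ((fx x).2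
      ⟨hx.1, fun k hk => g.injective ?_⟩)⟩) fun x hx => hn x fun e => hx.2 ((fx x).2 ⟨hx.1, e⟩)
    simpa using ((fx _).1 e).2 _ (mul_mem (mul_mem hg hk) (inv_mem hg))
  obtain ⟨b1, b2, b3⟩ := arith pp hj h.q2 k0 hm hk hle cA (hA ▸ dvd_pow_self _ i0) (by
    rw [hA]
    rcases Nat.lt_or_ge 1 i with e | e
    · exact .inr (pow_dvd_pow _ e)
    · exact .inl (by rw [show i = 1 by omega, pow_one])) (cg _ fun x hx => by
    obtain ⟨k, hk⟩ := orb_pow h.pg x hx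
    exact hk ▸ dvd_pow_self _ k.succ_ne_zero)
  refine ⟨⟨b1, b2⟩, by_contra fun no => b3 ?_⟩
  exact_mod_cast cg (ringChar F ^ 2) fun x hx => by
    obtain ⟨k, hk⟩ := orb_pow h.pg x hx
    refine hk ▸ pow_dvd_pow _ (by_contra fun e => no ⟨x, ?_⟩)
    rw [hk, show k = 0 by omega, zero_add, pow_one]

end H2.PG
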