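/-
S5855, chunk PG: S2.
-/
import Cfsg.Agent.H4.PG0

set_option autoImplicit false
set_option linter.unusedSectionVars false

open scoped commutatorElement

namespace H2.PG
open H4.PG

variable {F : Type*} [Field F] [Fintype F] {σ : F →+* F} {q : ℕ}
variable {G : Type*} [Group G] [Finite G] {ρ : G →* Matrix (Fin 7) (Fin 7) F}

theorem line2 (h : FD σ q) {S : Set (F × F)} (k : ∀ a ∈ S, ∀ b ∈ S, a.1 * b.2 = a.2 * b.1) :
    S.ncard ≤ q ^ 2 := by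
  obtain ⟨a, ha⟩ : ∃ a : F × F, ∀ b ∈ S, ∃ l : F, l • a = b := by
    by_cases e : ∃ a ∈ S, a ≠ 0
    · obtain ⟨a, ha, a0⟩ := e
      refine ⟨a, fun b hb => ?_⟩
      by_cases e1 : a.1 = 0
      · have e2 : a.2 ≠ 0 := fun e2 => a0 (Prod.ext e1 e2)
        exact ⟨b.2 / a.2, Prod.ext (by simp; field_simp; linear_combination k a ha b hb)
          (by simp; field_simp)⟩
      · exact ⟨b.1 / a.1, Prod.ext (by simp; field_simp)
          (by simp; field_simp; linear_combination -k a ha b hb)⟩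
    · push Not at e
      exact ⟨0, fun b hb => ⟨0, by simp [e b hb]⟩⟩
  rw [← h.cF]
  exact (Set.ncard_le_ncard (t := (fun l : F => l • a) '' Set.univ) fun b hb =>
    (ha b hb).imp fun l e => ⟨trivial, e⟩).trans (Set.ncard_image_le)

/-- the standing consequences of `¬ AF` -/
structure NA (σ : F →+* F) (q : ℕ) (ρ : G →* Matrix (Fin 7) (Fin 7) F) : Prop extends Md σ q ρ where
  t0 : T0 ρ
  e1 : E1 ρ
  eb : ∀ c, K2 ρ c → Eb ρ c (ρ c 1 5)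
  hA : ∀ a, (∀ l, ∃ c, K2 ρ c ∧ ρ c 1 5 = l * a) → a = 0
  i8 : ¬ toMd.S2.index ≤ q ^ 8

theorem s2a (h : NA σ q ρ) (z : ∀ g, ρ g 2 3 = 0) : False := by
  have z4 : ∀ g k : G, ρ ⁅g, k⁆ 2 4 = 0 := fun g k => by simp [h.c24, z]
  obtain ⟨s, hs, s', hs', d⟩ : ∃ s, K4 ρ s ∧ ∃ s', K4 ρ s' ∧
      ρ s 2 4 * ρ s' 3 4 ≠ ρ s 3 4 * ρ s' 2 4 := by
    by_contra! n
    have ad : ∀ g ∈ h.S4, ∀ k ∈ h.S4, (ρ (g * k) 2 4, ρ (g * k) 3 4) =
        (ρ g 2 4, ρ g 3 4) + (ρ k 2 4, ρ k 3 4) := fun g _ k _ => by simp [h.m24, h.m34, z]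
    have a1 := ks_idx ad (S := {v | ∃ s, K4 ρ s ∧ (ρ s 2 4, ρ s 3 4) = v}) (Set.toFinite _)
      fun g hg => ⟨g, h.mem4.1 hg, rfl⟩
    have a2 := idx (H' := h.S2) (H := ks h.S4 (fun g => (ρ g 2 4, ρ g 3 4)) ad) (fun g hg => by
      have a := h.mem2.1 hg
      exact ⟨h.mem4.2 a.toK4, Prod.ext a.h24 a.h34⟩) (fun g => (ρ g 2 5, ρ g 3 5)) Set.finite_univ
      (fun _ _ => trivial) fun g hg k hk e => by
        obtain ⟨b1, b2⟩ := mem_ks.1 (mul_mem hg (inv_mem hk))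
        obtain ⟨b2, b3⟩ := Prod.mk.inj b2
        obtain ⟨e1, e2⟩ := Prod.mk.inj e
        exact h.mem2.2 ⟨⟨h.mem4.1 b1, b3, by rw [h.d35, b3, e2]; simp⟩, z _, b2,
          by rw [h.d25, b2, z, e1]; simp⟩
    refine h.i8 (a2.trans ?_)
    rw [h.cF2, show 8 = 4 + (2 + 2) from rfl, pow_add, pow_add]
    refine Nat.mul_le_mul_left _ (a1.trans (Nat.mul_le_mul (line2 h.toFD ?_) h.i4))
    rintro _ ⟨s, hs, rfl⟩ _ ⟨s', hs', rfl⟩
    exact n s hs s' hs'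
  have sp : ∀ x y : F, x * ρ s 2 4 + y * ρ s 3 4 = 0 → x * ρ s' 2 4 + y * ρ s' 3 4 = 0 →
      x = 0 ∧ y = 0 := fun x y a b => by
    have d' := sub_ne_zero.2 d
    exact ⟨mul_right_cancel₀ d' (by linear_combination ρ s' 3 4 * a - ρ s 3 4 * b),
      mul_right_cancel₀ d' (by linear_combination ρ s 2 4 * b - ρ s' 2 4 * a)⟩
  have ex : ∀ x y : F, ∃ b, ρ b 2 4 = 0 ∧ ρ b 3 4 = 0 ∧ ρ b 4 5 = 0 ∧ ρ b 2 5 = x ∧ ρ b 3 5 = y := by
    intro x y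
    have d' := sub_ne_zero.2 d
    obtain ⟨g, -, -, -, -, e⟩ := h.tr 0 0 0 0 ((x * ρ s' 3 4 - y * ρ s' 2 4) /
      (ρ s 2 4 * ρ s' 3 4 - ρ s 3 4 * ρ s' 2 4))
    obtain ⟨g', -, -, -, -, e'⟩ := h.tr 0 0 0 0 ((y * ρ s 2 4 - x * ρ s 3 4) /
      (ρ s 2 4 * ρ s' 3 4 - ρ s 3 4 * ρ s' 2 4))
    refine ⟨⁅s, g⁆ * ⁅s', g'⁆, by simp [h.m24, z4, z], by simp [h.m34, h.c34], by simp [h.m45, h.c45],
      ?_, ?_⟩
    · rw [h.m25, h.c25, h.c25, z4, z4, h.c45, e, e', hs.h45, hs'.h45]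
      simp only [z]
      linear_combination x * mul_inv_cancel₀ d'
    · rw [h.m35, h.c35, h.c35, h.c45, e, e', hs.h45, hs'.h45]
      linear_combination y * mul_inv_cancel₀ d'
  have key : ∀ b, ρ b 2 4 = 0 → ρ b 3 4 = 0 → ρ b 4 5 = 0 → ∀ g, K2 ρ ⁅b, g⁆ ∧
      ρ ⁅b, g⁆ 1 5 = ρ b 1 4 * ρ g 4 5 - (ρ g 1 2 * ρ b 2 5 + ρ g 1 3 * ρ b 3 5) ∧
      ρ ⁅b, g⁆ 1 5 = ρ b 0 2 * ρ g 2 4 + ρ b 0 3 * ρ g 3 4 - ρ g 4 5 * ρ b 1 4 := by
    intro b b1 b2 b3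
    have c2 : ∀ g, K2 ρ ⁅b, g⁆ := fun g => ⟨⟨⟨h.c45 _ _⟩, h.c34 _ _, by simp [h.c35, b2, b3]⟩, z _,
      z4 _ _, by rw [h.c25, z4]; simp [z, b1, b3]⟩
    have c4 : ∀ g, ρ b 1 2 * ρ g 2 4 + ρ b 1 3 * ρ g 3 4 = 0 := fun g => by
      have := h.c14 b g
      rw [(h.eb _ (c2 g)).h14, (h.eb _ (c2 g)).h13, b1, b2] at this
      linear_combination -this
    obtain ⟨p1, p2⟩ := sp _ _ (c4 s) (c4 s')
    intro g
    have c := h.eb _ (c2 g)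
    refine ⟨c2 g, by rw [h.c15, c.h13, c.h14, p1, p2, b3]; ring, ?_⟩
    rw [← c.h04, h.c04, c.h02, c.h03, h.e1 b, h.e1 g, b1, b2, b3]; ring
  have p4 : ∀ g, K4 ρ g → ρ g 1 2 = 0 ∧ ρ g 1 3 = 0 := fun g hg =>
    ⟨h.hA _ fun l => by
      obtain ⟨b, b1, b2, b3, b4, b5⟩ := ex (-l) 0
      exact ⟨_, (key b b1 b2 b3 g).1, by rw [(key b b1 b2 b3 g).2.1, hg.h45, b4, b5]; ring⟩,
    h.hA _ fun l => by
      obtain ⟨b, b1, b2, b3, b4, b5⟩ := ex 0 (-l)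
      exact ⟨_, (key b b1 b2 b3 g).1, by rw [(key b b1 b2 b3 g).2.1, hg.h45, b4, b5]; ring⟩⟩
  have p5 : ∀ x y g, ρ g 1 2 * x + ρ g 1 3 * y = 0 := fun x y g => by
    obtain ⟨b, b1, b2, b3, b4, b5⟩ := ex x y
    have k := key b b1 b2 b3
    have y4 : ∀ g, K4 ρ g → ρ b 0 2 * ρ g 2 4 + ρ b 0 3 * ρ g 3 4 = 0 := fun g hg => by
      have := (k g).2.1.symm.trans (k g).2.2
      rw [hg.h45, (p4 g hg).1, (p4 g hg).2] at this
      linear_combination -this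
    obtain ⟨y1, y2⟩ := sp _ _ (y4 s hs) (y4 s' hs')
    have b6 : ρ b 1 4 = 0 := h.hA _ fun l => by
      obtain ⟨g, -, -, -, -, e⟩ := h.tr 0 0 0 0 (-l)
      exact ⟨_, (k g).1, by rw [(k g).2.2, y1, y2, e]; ring⟩
    have := (k g).2.1.symm.trans (k g).2.2
    rw [y1, y2, b6, b4, b5] at this
    linear_combination -this
  have n2 : ¬ nz ρ 1 2 := fun ⟨g, e⟩ => e (by simpa using p5 1 0 g)
  have n3 : ¬ nz ρ 1 3 := fun ⟨g, e⟩ => e (by simpa using p5 0 1 g)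
  have n4 : ¬ nz ρ 2 3 := fun ⟨g, e⟩ => e (z g)
  have := h.nk
  unfold NK at this
  tauto

theorem s2b (h : NA σ q ρ) (fx : FX1 ρ) {g0 : G} (z : ρ g0 2 3 ≠ 0) : False := by
  have i3 : (∀ g, K4 ρ g → ρ g 3 4 = 0) → h.S3.index ≤ q ^ 4 := fun n =>
    (h.i3 (ρ · 3 5) Set.finite_univ (fun _ _ => trivial) fun g k a b e =>
      ⟨(n g a).trans (n k b).symm, e⟩).trans (by
        rw [h.cF, show 4 = 2 + 2 from rfl, pow_add]; exact Nat.mul_le_mul_left _ h.i4)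
  have ex : ∀ μ, ∃ b, K3 ρ b ∧ ρ b 2 3 = 0 ∧ ρ b 2 4 = 0 ∧ ρ b 2 5 = μ := by
    by_cases n : ∃ g, K3 ρ g ∧ (ρ g 2 3 ≠ 0 ∨ ρ g 2 4 ≠ 0)
    · obtain ⟨g, a, n⟩ := n
      exact h.nc2 a n
    push Not at n
    refine absurd ((h.i2 (ρ · 2 5) Set.finite_univ (fun _ _ => trivial) fun g k a b e =>
      ⟨(n g a).1.trans (n k b).1.symm, (n g a).2.trans (n k b).2.symm, e⟩).trans ?_) h.i8
    rw [h.cF, show 8 = 2 + 6 from rfl, pow_add]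
    exact Nat.mul_le_mul_left _ h.j3
  choose b b1 b2 b3 b4 using ex
  have c2 : ∀ μ g, K2 ρ ⁅b μ, g⁆ := fun μ g => by
    have e : ρ ⁅b μ, g⁆ 2 4 = 0 := by simp [h.c24, b2, (b1 μ).h34]
    exact ⟨h.n3 (b1 μ) g, h.c23 _ _, e, by rw [h.c25, e]; simp [b2, b3, (b1 μ).h35, (b1 μ).h45]⟩
  have c := fun μ g => h.eb _ (c2 μ g)
  have b12 : ∀ μ, ρ (b μ) 1 2 = 0 := fun μ => by
    have := h.c13 (b μ) g0
    rw [(c μ g0).h13, b2] at this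
    exact mul_right_cancel₀ z (by linear_combination -this)
  have k14 : ∀ μ g, ρ (b μ) 1 3 * ρ g 3 4 = 0 := fun μ g => by
    have := h.c14 (b μ) g
    rw [(c μ g).h14, (c μ g).h13, b12, b3, (b1 μ).h34] at this
    linear_combination -this
  have k15 : ∀ μ g, ρ ⁅b μ, g⁆ 1 5 = ρ (b μ) 1 3 * ρ g 3 5 + ρ (b μ) 1 4 * ρ g 4 5 - ρ g 1 2 * μ :=
    fun μ g => by rw [h.c15, (c μ g).h14, (c μ g).h13, b12, b4, (b1 μ).h35, (b1 μ).h45]; ring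
  have k03 : ∀ μ g, ρ (b μ) 0 2 * ρ g 2 3 = ρ g 4 5 * ρ (b μ) 1 3 := fun μ g => by
    have := h.c03 (b μ) g
    rw [(c μ g).h03, (c μ g).h02, h.e1, h.e1, (b1 μ).h45, b2] at this
    linear_combination -this
  have k04 : ∀ μ g, ρ ⁅b μ, g⁆ 1 5 =
      ρ (b μ) 0 2 * ρ g 2 4 + ρ (b μ) 0 3 * ρ g 3 4 - ρ g 4 5 * ρ (b μ) 1 4 := fun μ g => by
    rw [← (c μ g).h04, h.c04, (c μ g).h03, (c μ g).h02, h.e1, h.e1, (b1 μ).h45, b3, (b1 μ).h34]; ring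
  have s12 : ∀ s, K3 ρ s → ρ s 1 2 = 0 := fun s a => h.hA _ fun l =>
    ⟨_, c2 (-l) s, by rw [k15, a.h35, a.h45]; ring⟩
  by_cases t : ∀ g, ρ g 3 4 = 0
  · obtain ⟨g, n⟩ : nz ρ 1 2 := by
      have n : ¬ nz ρ 3 4 := fun ⟨g, e⟩ => e (t g)
      have := h.nk
      unfold NK at this
      tauto
    have inj : ∀ s, K3 ρ s → ρ s 2 3 * ρ g 3 5 + ρ s 2 4 * ρ g 4 5 = 0 → ρ s 2 3 = 0 ∧ ρ s 2 4 = 0 := by
      intro s a e
      have e4 : ρ ⁅s, g⁆ 2 4 = 0 := by simp [h.c24, t]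
      have d := h.eb _ ⟨h.n3 a g, h.c23 _ _, e4, by rw [h.c25, e4, e, a.h35, a.h45]; simp⟩
      have d3 := h.c13 s g
      have d4 := h.c14 s g
      rw [d.h13, s12 s a] at d3 d4
      rw [d.h14, t, t] at d4
      exact ⟨mul_left_cancel₀ n (by linear_combination d3), mul_left_cancel₀ n (by linear_combination d4)⟩
    refine h.i8 ((h.i2 (fun s => (ρ s 2 3 * ρ g 3 5 + ρ s 2 4 * ρ g 4 5, ρ s 2 5)) Set.finite_univ
      (fun _ _ => trivial) fun s k a a' e => ?_).trans ?_)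
    · obtain ⟨e1, e2⟩ := Prod.mk.inj e
      have := inj _ (h.mem3.1 (mul_mem (h.mem3.2 a) (inv_mem (h.mem3.2 a')))) (by
        rw [h.d24, h.d23, t]; linear_combination e1)
      rw [h.d24, h.d23, t, mul_zero, sub_zero, sub_eq_zero, sub_eq_zero] at this
      exact ⟨this.1, this.2, e2⟩
    · rw [h.cF2, show 8 = 4 + 4 from rfl, pow_add]
      exact Nat.mul_le_mul_left _ (i3 fun g _ => t g)
  push Not at t
  obtain ⟨g1, t⟩ := t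
  have b13 : ∀ μ, ρ (b μ) 1 3 = 0 := fun μ => (mul_eq_zero.1 (k14 μ g1)).resolve_right t
  have b02 : ∀ μ, ρ (b μ) 0 2 = 0 := fun μ => mul_right_cancel₀ z (by rw [k03, b13]; simp)
  by_cases n : ∀ g, ρ g 1 2 = 0
  · have b14 : ρ (b 1) 1 4 = 0 := h.hA _ fun l => by
      obtain ⟨g, -, -, -, -, e⟩ := h.tr 0 0 0 0 l
      exact ⟨_, c2 1 g, by rw [k15, b13, n, e]; ring⟩
    have l0 : ∀ g, ρ ⁅b 1, g⁆ 1 5 = 0 := fun g => by rw [k15, b13, b14, n]; ring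
    have b03 : ρ (b 1) 0 3 = 0 := mul_right_cancel₀ t (by
      have := k04 1 g1
      rw [l0, b02, b14] at this
      linear_combination -this)
    refine one_ne_zero (fx (ρ (b 1) 1 5 - ρ (b 1) 0 4) 1 0 0 fun g => ⟨?_, by simp [n], by simp, by simp⟩).2.1
    have d := h.k10 h.t0 ⟨c2 1 g, h.c12 _ _, (c 1 g).h13, (c 1 g).h14, l0 g⟩
    have := h.c05 (b 1) g
    rw [d.h02, d.h03, d.h04, d.h05, h.e1 (b 1), b02, b03, b4, (b1 1).h35, (b1 1).h45, ← h.e1 g] at this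
    linear_combination this
  push Not at n
  obtain ⟨g2, n⟩ := n
  have g12 : ∀ g, K4 ρ g → ρ g 1 2 = 0 := fun g a => h.hA _ fun l =>
    ⟨_, c2 (-l) g, by rw [k15, b13, a.h45]; ring⟩
  have s13 : ∀ s, K3 ρ s → ρ s 2 3 = 0 → ρ s 1 3 = 0 := fun s a e => h.hA _ fun l => by
    obtain ⟨g, -, -, -, e1, e2⟩ := h.tr 0 0 0 l 0
    have e4 : ρ ⁅s, g⁆ 2 4 = 0 := by simp [h.c24, e, a.h34]
    have d : K2 ρ ⁅s, g⁆ := ⟨h.n3 a g, h.c23 _ _, e4, by rw [h.c25, e4, e, e2, a.h35, a.h45]; simp⟩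
    exact ⟨_, d, by
      rw [h.c15, (h.eb _ d).h13, (h.eb _ d).h14, s12 s a, g12 g ⟨e2⟩, e1, e2, a.h35, a.h45]; ring⟩
  have s23 : ∀ s, K3 ρ s → ρ s 2 3 = 0 := fun s a => by
    have := h.c13 s g2
    rw [s13 _ (h.n3 a g2) (h.c23 _ _), s12 s a] at this
    exact mul_left_cancel₀ n (by linear_combination this)
  obtain ⟨r, a, e⟩ : ∃ r, K4 ρ r ∧ ρ r 3 4 ≠ 0 := by
    by_contra! m
    refine h.i8 ((h.i2 (fun s => (ρ s 2 4, ρ s 2 5)) Set.finite_univ (fun _ _ => trivial)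
      fun s k a a' e => ⟨(s23 s a).trans (s23 k a').symm, Prod.mk.inj e⟩).trans ?_)
    rw [h.cF2, show 8 = 4 + 4 from rfl, pow_add]
    exact Nat.mul_le_mul_left _ (i3 m)
  have b03 : ρ (b 1) 0 3 = 0 := mul_right_cancel₀ e (by
    have := (k15 1 r).symm.trans (k04 1 r)
    rw [b13, b02, g12 r a, a.h45] at this
    linear_combination -this)
  have b14 : ρ (b 1) 1 4 = 0 := h.hA _ fun l => by
    obtain ⟨g, -, -, -, -, e⟩ := h.tr 0 0 0 0 (-l)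
    exact ⟨_, c2 1 g, by rw [k04, b02, b03, e]; ring⟩
  have := (k15 1 g2).symm.trans (k04 1 g2)
  rw [b13, b02, b03, b14] at this
  exact n (by linear_combination -this)

theorem s2 (h : Md σ q ρ) : S2 ρ := by
  intro t0 e1 fx
  by_contra na
  have cn : ∀ c, K2 ρ c → Cn ρ c (ρ c 1 5) 0 := fun c a => by
    have : ¬ (ρ c 1 2 ≠ 0 ∨ ρ c 1 3 ≠ 0 ∨ ρ c 1 4 ≠ 0) := fun n => na (h.nc1 a n)
    push Not at this
    exact ⟨a.1, this.1, this.2.1, this.2.2, a.h23, a.h24, rfl, a.h25⟩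
  have H : NA σ q ρ := ⟨h, t0, e1, fun c a => h.bx t0 e1 (cn c a), fun a k => by_contra fun a0 =>
    na fun x => by
      obtain ⟨c, b, e⟩ := k (x / a)
      exact ⟨c, by simpa [e, a0] using cn c b⟩, fun i8 => by
    obtain ⟨x, hx⟩ := not_forall.1 na
    have a1 := h.i1 (ρ · 1 5) (S := {x}ᶜ) (Set.toFinite _) (fun g a e => hx ⟨g, e ▸ cn g a⟩)
      fun g k a b e => ⟨(cn g a).h12.trans (cn k b).h12.symm, (cn g a).h13.trans (cn k b).h13.symm,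
        (cn g a).h14.trans (cn k b).h14.symm, e⟩
    have a2 : h.S0.index ≤ h.S1.index := Subgroup.index_antitone fun g a =>
      h.mem0.2 (h.k10 t0 (h.mem1.1 a))
    have a3 : ({x}ᶜ : Set F).ncard < q ^ 2 := h.cF ▸ Set.ncard_lt_ncard
      (Set.ssubset_univ_iff.2 fun e => (e ▸ Set.mem_univ x : x ∈ ({x}ᶜ : Set F)) rfl)
    have a4 := (h.i0.trans a2).trans (a1.trans (Nat.mul_le_mul_left _ i8))
    rw [show 10 = 2 + 8 from rfl, pow_add] at a4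
    exact absurd (Nat.le_of_mul_le_mul_right a4 (pow_pos (by linarith [h.q2]) 8)) a3.not_ge⟩
  by_cases z : ∀ g, ρ g 2 3 = 0
  · exact s2a H z
  push Not at z
  exact s2b H fx z.choose_spec

end H2.PG
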