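import Cfsg.Agent.H6.PS0

/-! S0725: the block system of an imprimitive point stabilizer. -/

set_option autoImplicit false
open MulAction Finset H6.PS H22.Bab

namespace H2.PS
universe u

theorem bl : BL.{u} := by
  classical
  intro K Ω _ _ _ _ α t2 c3 np
  set H := stabilizer K α
  have tr : IsPretransitive H (SubMulAction.ofStabilizer K α) := ⟨fun x y => by
    obtain ⟨g, h1, h2⟩ := t2 α x α y (Ne.symm x.2) (Ne.symm y.2)
    exact ⟨⟨g, h1⟩, Subtype.ext h2⟩⟩
  have nt : Nontrivial (SubMulAction.ofStabilizer K α) := by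
    have := SubMulAction.nat_card_ofStabilizer_add_one_eq K α
    exact Finite.one_lt_card_iff_nontrivial.1 (by omega)
  obtain ⟨β, γ, ne⟩ := exists_pair_ne (SubMulAction.ofStabilizer K α)
  have n1 : stabilizer H β ≠ ⊤ := fun e => by
    obtain ⟨g, rfl⟩ := exists_smul_eq H β γ
    exact ne (mem_stabilizer_iff.1 (e.ge (Subgroup.mem_top g))).symm
  obtain ⟨M, hM, le⟩ := (eq_top_or_exists_le_coatom (stabilizer H β)).resolve_left n1
  obtain ⟨m, m1, m2⟩ := SetLike.exists_of_lt (le.lt_of_ne fun e =>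
    np ((isCoatom_stabilizer_iff_preprimitive H β).1 (e ▸ hM)))
  have nq : Nontrivial (H ⧸ M) := QuotientGroup.nontrivial_iff.2 hM.1
  let π : Ω → H ⧸ M := fun x => if h : x ≠ α then ((exists_smul_eq H β ⟨x, h⟩).choose : H) else (1 : H)
  have ex : ∀ x ≠ α, ∃ k : H, (k : K) • (β : Ω) = x := fun x h =>
    let ⟨k, e⟩ := exists_smul_eq H β ⟨x, h⟩; ⟨k, congrArg Subtype.val e⟩
  have na : ∀ (k : H) x, x ≠ α → (k : K) • x ≠ α := fun k x h e => h (by
    rw [← inv_smul_smul (k : K) x, e]; exact mem_stabilizer_iff.1 (inv_mem k.2))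
  have key : ∀ k : H, π ((k : K) • (β : Ω)) = k := fun k => by
    have h := na k β β.2
    have e := (exists_smul_eq H β ⟨_, h⟩).choose_spec
    simp only [π, dif_pos h]
    refine QuotientGroup.eq.2 (le (mem_stabilizer_iff.2 ?_))
    rw [mul_smul, inv_smul_eq_iff, e]; rfl
  have eqv : ∀ (h : H) (x : Ω), x ≠ α → π ((h : K) • x) = h • π x := fun h x hx => by
    obtain ⟨k, rfl⟩ := ex x hx
    rw [← mul_smul, ← Subgroup.coe_mul, key, key]; rfl
  have fib : ∀ σ : H ⧸ M, {x : Ω | x ≠ α ∧ π x = σ}.ncard = {x : Ω | x ≠ α ∧ π x = (1 : H)}.ncard := fun σ => by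
    obtain ⟨g, rfl⟩ := QuotientGroup.mk_surjective σ
    rw [← Set.ncard_image_of_injective {x : Ω | x ≠ α ∧ π x = (1 : H)} (MulAction.injective (g : K))]
    congr 1
    ext x
    refine ⟨fun h => ⟨((g⁻¹ : H) : K) • x, ⟨na _ _ h.1, ?_⟩, by simp⟩, ?_⟩
    · rw [eqv _ _ h.1, h.2]; change ((g⁻¹ * g : H) : H ⧸ M) = _; rw [inv_mul_cancel]
    · rintro ⟨y, h, rfl⟩
      refine ⟨na _ _ h.1, ?_⟩
      rw [eqv _ _ h.1, h.2]; change ((g * 1 : H) : H ⧸ M) = _; rw [mul_one]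
  refine ⟨H ⧸ M, inferInstance, Nat.card (H ⧸ M), _, (isCoatom_stabilizer_iff_preprimitive H ((1 : H) : H ⧸ M)).1
    (by rwa [stabilizer_quotient]), ⟨⟨π, eqv, fib, rfl, ?_, Finite.one_lt_card, ?_⟩⟩⟩
  · have := Fintype.ofFinite (H ⧸ M)
    have k := card_eq_sum_card_fiberwise (f := π) (s := univ.erase α) (t := univ) fun _ _ => mem_univ _
    rw [sum_congr rfl (g := fun _ => {x : Ω | x ≠ α ∧ π x = (1 : H)}.ncard) fun σ _ => by
      rw [← fib σ, ← Set.ncard_coe_finset]; congr 1; ext x; simp, sum_const, card_erase_of_mem (mem_univ α), card_univ,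
      card_univ, smul_eq_mul, ← Nat.card_eq_fintype_card, ← Nat.card_eq_fintype_card] at k
    omega
  · refine (Set.one_lt_ncard (Set.toFinite _)).2 ⟨β, ⟨β.2, by simpa using key 1⟩, (m : K) • (β : Ω), ⟨na _ _ β.2, ?_⟩,
      fun e => m2 (Subtype.ext e.symm)⟩
    rw [key]; exact QuotientGroup.eq.2 (by simpa using m1)

section
variable {G Ω : Type*} [Group G] [MulAction G Ω]

theorem two_trans [Fintype Ω] [DecidableEq Ω] [Finite G] {g : G} {x : Ω} (hx : g • x ≠ x)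
    (h2 : ∀ u v : Ω, u ≠ x → v ≠ x → ∃ h : G, h • x = x ∧ h • u = v)
    (h3 : ∀ f : G, ¬ (toPermHom G Ω f).IsThreeCycle) :
    Fintype.card Ω - 1 ≤ (#(supp Ω g) - 1) * (#(supp Ω g) - 1) := by
  classical
  have := Fintype.ofFinite (stabilizer G x)
  set D := (supp Ω g).erase x with hD
  have h1 : (univ : Finset (stabilizer G x)) ⊆
      (D ×ˢ D).biUnion fun p => univ.filter fun h => h • p.1 = p.2 := by
    intro h _
    by_contra hc
    simp only [mem_biUnion, mem_filter, mem_univ, true_and, not_exists, not_and] at hc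
    have hh : (h : G)⁻¹ • x = x := mem_stabilizer_iff.1 (inv_mem h.2)
    refine h3 _ (three g (h * g * (h : G)⁻¹) hx (fun e => hx ?_) (fun z h4 h5 => ?_))
    · rw [mul_smul, mul_smul, hh, ← eq_inv_smul_iff, hh] at e; exact e
    · by_contra h6
      refine hc ((h : G)⁻¹ • z, z) ?_ (smul_inv_smul (h : G) z)
      simp only [D, mem_product, mem_erase, mem_supp]
      refine ⟨⟨fun e => h6 ?_, fun e => h5 ?_⟩, h6, h4⟩
      · rw [inv_smul_eq_iff] at e; rw [e]; exact h.2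
      · rw [mul_smul, mul_smul, e, smul_inv_smul]
  have h4 := (card_le_card h1).trans card_biUnion_le
  have h5 : (∑ p ∈ D ×ˢ D, #(univ.filter fun h : stabilizer G x => h • p.1 = p.2)) *
      (Fintype.card Ω - 1) ≤ ∑ _p ∈ D ×ˢ D, Fintype.card (stabilizer G x) := by
    rw [sum_mul]
    refine sum_le_sum (fun p hp => le_trans (Nat.mul_le_mul_left _ ?_) (count p.1 p.2))
    have hp1 := (mem_erase.1 (mem_product.1 hp).1).1
    rw [← card_univ, ← card_erase_of_mem (mem_univ x), Nat.card_coe_set_eq,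
      ← Set.ncard_coe_finset]
    refine Set.ncard_le_ncard (fun v hv => ?_)
    obtain ⟨h, h6, h7⟩ := h2 p.1 v hp1 (mem_erase.1 hv).1
    exact ⟨⟨h, h6⟩, h7⟩
  have h6 := (Nat.mul_le_mul_right _ h4).trans h5
  rw [sum_const, card_product, smul_eq_mul, card_univ, mul_comm (#D * #D)] at h6
  have h7 := Nat.le_of_mul_le_mul_left h6 Fintype.card_pos
  rwa [hD, card_erase_of_mem (mem_supp.2 hx)] at h7

/-- a `p`-element fixes the points of an invariant set with fewer than `p` points -/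
theorem fix [Finite G] [Finite Ω] {x : G} {p a : ℕ} (hp : p.Prime) (e : x ^ p ^ a = 1) {F : Set Ω} (c : F.ncard < p)
    (i : ∀ v ∈ F, x • v ∈ F) {u : Ω} (hu : u ∈ F) : x • u = u := by
  have d := (stabilizer (Subgroup.zpowers x) u).index_dvd_card.trans
    (Nat.card_zpowers x ▸ orderOf_dvd_of_pow_eq_one e)
  have l : orbit (Subgroup.zpowers x) u ⊆ F := by
    rintro _ ⟨⟨y, hy⟩, rfl⟩
    obtain ⟨n, rfl⟩ := mem_powers_iff_mem_zpowers.2 hy
    change x ^ n • u ∈ F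
    clear hy
    induction n with
    | zero => simpa using hu
    | succ n ih => rw [pow_succ', mul_smul]; exact i _ ih
  have l2 := (index_stabilizer (Subgroup.zpowers x) u).trans_le (Set.ncard_le_ncard l)
  obtain ⟨j, -, ej⟩ := (Nat.dvd_prime_pow hp).1 d
  rcases j with _ | j
  · exact (Subgroup.index_eq_one.1 ej).ge (Subgroup.mem_top ⟨x, Subgroup.mem_zpowers x⟩)
  · exact absurd ((Nat.le_self_pow j.succ_ne_zero p).trans (ej.symm.le.trans l2)) (not_le.2 c)

/-- the support of a commutator -/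
theorem comm_fix (σ τ : G) {Δ : Set Ω} (h : ∀ z, σ • z ≠ z → τ • z ≠ z → z ∈ Δ) {z : Ω} (h1 : z ∉ Δ)
    (h2 : σ⁻¹ • z ∉ Δ) (h3 : τ⁻¹ • z ∉ Δ) : (σ * τ * σ⁻¹ * τ⁻¹) • z = z := by
  have i1 : ∀ (f : G) (z : Ω), f • z = z → f⁻¹ • z = z := fun f z h => by
    rw [inv_smul_eq_iff, h]
  have i2 : ∀ (f : G) (z : Ω), f • z ≠ z → f • f⁻¹ • z ≠ f⁻¹ • z := fun f z h h' => by
    rw [smul_inv_smul, eq_inv_smul_iff] at h'; exact h h'
  simp only [mul_smul]
  by_cases h4 : σ • z = z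
  · by_cases h5 : τ • z = z
    · rw [i1 _ _ h5, i1 _ _ h4, h5, h4]
    · rw [i1 _ _ (by_contra fun k => h3 (h _ k (i2 _ _ h5))), smul_inv_smul, h4]
  · rw [i1 _ _ (by_contra fun k => h1 (h _ h4 k)), show τ • σ⁻¹ • z = σ⁻¹ • z from by_contra fun k => h2 (h _ (i2 _ _ h4) k),
      smul_inv_smul]

/-- `p`-elements inducing cycles -/
theorem cyc [Finite G] [Fintype Ω] [DecidableEq Ω] (al : alternatingGroup Ω ≤ (toPermHom G Ω).range) {p : ℕ} (hp : p.Prime)
    (o : Odd p) {A : Finset Ω} (c : #A = p) :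
    ∃ (x : G) (a : ℕ), x ^ p ^ a = 1 ∧ ∀ z, x • z ≠ z ↔ z ∈ A := by
  obtain ⟨f, f1, f2⟩ := A.exists_cycleOn
  have fz : ∀ n z, z ∉ A → (f ^ n) z = z := fun n z h =>
    Equiv.Perm.pow_apply_eq_self_of_apply_eq_self (Equiv.Perm.notMem_support.1 fun m => h (f2 m)) n
  have fp : f ^ p = 1 := Equiv.ext fun z => by
    by_cases h : z ∈ A
    exacts [(f1.pow_apply_eq h).2 c.dvd, fz p z h]
  obtain ⟨y, hy⟩ := al (Equiv.Perm.mem_alternatingGroup.2 (by
    have := congrArg Equiv.Perm.sign fp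
    rw [map_pow, map_one] at this
    rcases Int.units_eq_one_or (Equiv.Perm.sign f) with e | e
    · exact e
    · rw [e, o.neg_one_pow] at this; exact absurd this (by decide)) : f ∈ _)
  obtain ⟨a, m, n, e⟩ := Nat.exists_eq_pow_mul_and_not_dvd (orderOf_pos y).ne' p hp.ne_one
  refine ⟨y ^ m, a, by rw [← pow_mul, mul_comm, ← e, pow_orderOf_eq_one], fun z => ?_⟩
  have k : y ^ m • z = (f ^ m) z := by rw [← hy, ← map_pow]; rfl
  rw [k]
  exact ⟨fun h => by_contra fun h' => h (fz m z h'), fun h h' => n (c ▸ (f1.pow_apply_eq h).1 h')⟩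
end

theorem al : AL.{u} := by
  classical
  intro K Ω Λ _ _ _ _ α _ _ _ s b t2 n3 B hA
  have hb := B.hb
  obtain ⟨p, hp, p1, p2⟩ := Nat.exists_prime_lt_and_le_two_mul b (by omega)
  by_cases hs : s < 2 * p - 1
  · omega
  have cs : #(univ : Finset Λ) = s := by rw [card_univ, ← Nat.card_eq_fintype_card, B.cs]
  obtain ⟨A, -, cA⟩ := exists_subset_card_eq (s := (univ : Finset Λ)) (n := p) (by omega)
  obtain ⟨σ, hσ⟩ := card_pos.1 (cA ▸ hp.pos)
  obtain ⟨C, lC, cC⟩ := exists_subset_card_eq (s := univ \ A) (n := p - 1) (by rw [card_sdiff_of_subset (subset_univ A)]; omega)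
  have nC : ∀ z ∈ C, z ∉ A := fun z h => (mem_sdiff.1 (lC h)).2
  have o := hp.odd_of_ne_two (by omega)
  obtain ⟨x, a, x1, x2⟩ := cyc hA hp o cA
  obtain ⟨y, c, y1, y2⟩ := cyc hA hp o (A := insert σ C) (by
    rw [card_insert_of_notMem fun h => nC σ h hσ, cC]; have := hp.pos; omega)
  have na : ∀ (k : stabilizer K α) x, x ≠ α → (k : K) • x ≠ α := fun k x h e => h (by
    rw [← inv_smul_smul (k : K) x, e]; exact mem_stabilizer_iff.1 (inv_mem k.2))
  have mv : ∀ (x : stabilizer K α) a, x ^ p ^ a = 1 → ∀ z : Ω, (x : K) • z ≠ z → z ≠ α ∧ x • B.π z ≠ B.π z :=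
    fun x a e z h => by
    have zα : z ≠ α := fun e => h (e ▸ x.2)
    exact ⟨zα, fun k => h (fix (G := stabilizer K α) hp e (F := {v | v ≠ α ∧ B.π v = B.π z}) (by rw [B.fib]; exact p1)
      (fun v hv => ⟨na x v hv.1, (B.eqv x v hv.1).trans (hv.2 ▸ k)⟩) ⟨zα, rfl⟩)⟩
  have one : ∀ z, x • z ≠ z → y • z ≠ z → z = σ := fun z h1 h2 =>
    (mem_insert.1 ((y2 z).1 h2)).resolve_right fun h => nC z h ((x2 z).1 h1)
  obtain ⟨l, hl⟩ := card_pos.1 ((three x y ((x2 σ).2 hσ) ((y2 σ).2 (mem_insert_self _ _)) one).card_support.symm ▸ three_pos)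
  obtain ⟨v, hv⟩ := Set.nonempty_of_ncard_ne_zero (s := {v | v ≠ α ∧ B.π v = l}) (by rw [B.fib]; omega)
  have hg : ((x : K) * y * (x : K)⁻¹ * (y : K)⁻¹) • v ≠ v := fun e => Equiv.Perm.mem_support.1 hl (by
    have := B.eqv (x * y * x⁻¹ * y⁻¹) v hv.1
    rw [show ((x * y * x⁻¹ * y⁻¹ : stabilizer K α) : K) • v = v from e, hv.2] at this
    exact this.symm)
  have t := two_trans hg (fun a b h1 h2 => t2 v a v b h1.symm h2.symm) fun f h => n3 f (by
    rw [← h.card_support, ← Set.ncard_coe_finset]; congr 1; ext z; simp)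
  set Δ : Set Ω := {v | v ≠ α ∧ B.π v = σ}
  have c3 : #(supp Ω ((x : K) * y * (x : K)⁻¹ * (y : K)⁻¹)) ≤ 3 * b := by
    rw [← Set.ncard_coe_finset]
    have l : (supp Ω ((x : K) * y * (x : K)⁻¹ * (y : K)⁻¹) : Set Ω) ⊆ Δ ∪ ((x : K) • ·) '' Δ ∪ ((y : K) • ·) '' Δ := fun z hz =>
      by_contra fun k => mem_supp.1 hz (comm_fix (Δ := Δ) _ _ (fun z h1 h2 => ⟨(mv x a x1 z h1).1,
        one _ (mv x a x1 z h1).2 (mv y c y1 z h2).2⟩) (fun h => k (.inl (.inl h))) (fun h => k (.inl (.inr ⟨_, h, by simp⟩)))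
        fun h => k (.inr ⟨_, h, by simp⟩))
    have e1 := (Set.ncard_le_ncard l).trans (Set.ncard_union_le _ _)
    have e2 := Set.ncard_union_le Δ (((x : K) • ·) '' Δ)
    have ex : (((x : K) • ·) '' Δ).ncard = Δ.ncard := Set.ncard_image_of_injective Δ (MulAction.injective (x : K))
    have ey : (((y : K) • ·) '' Δ).ncard = Δ.ncard := Set.ncard_image_of_injective Δ (MulAction.injective (y : K))
    have hΔ : Δ.ncard = b := B.fib σ
    omega
  rw [← Nat.card_eq_fintype_card, B.cn, Nat.add_sub_cancel] at t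
  have t' := t.trans (Nat.mul_le_mul (Nat.sub_le_sub_right c3 1) (Nat.sub_le_sub_right c3 1))
  obtain ⟨b, rfl⟩ : ∃ c, b = c + 2 := ⟨b - 2, by omega⟩
  rw [show 3 * (b + 2) - 1 = 3 * b + 5 by omega] at t'
  by_contra! k
  nlinarith

end H2.PS
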