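/-
Locally maximal pairs: all pumpups are trivial (after `H1/LB5`).
-/
import Cfsg.Agent.H1.LB5

set_option autoImplicit false
set_option linter.unusedSectionVars false

open Cfsg Subgroup
open scoped Pointwise commutatorElement
namespace H2.UA
open H19 H1

/-- a locally extremal pair -/
structure LM {G : Type*} [Group G] (p : ℕ) (x : G) (K : Subgroup G) : Prop extends Pr p x K where
  dich : ∀ y ∈ cm p C[x] K, orderOf y = p → Triv p K y ∨ ∃ J, Diag p x K y J ∧ Smp p J ∧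
    ∀ Q, Syl p Q (cm p C[x] K) → ∀ R ≤ cm p C[y] J, PG p R → #R ≤ #Q

variable {G : Type*} [Group G] [Finite G] {p : ℕ} [hp : Fact p.Prime]
  {A B H J K L M P Q R S T U W X Y : Subgroup G} {g t x y z : G}

set_option quotPrecheck false in
local notation:max "O'" H:max => Oc ({p} : Set ℕ)ᶜ H

theorem diag_big (d : Diag p x K y J) (hQ : Syl p Q (cm p C[x] K)) (hy : y ∈ Z(Q)) :
    ∃ R ≤ cm p C[y] J, PG p R ∧ #Q < #R := by
  have h := d.toPr
  have h1 : Q ≤ cm p C[x] K ⊓ C[y] := le_inf hQ.le (le_cent1_iff.2 hy.2)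
  have hx := h.mem_syl hQ
  have hQx : Q ≤ C[x] := hQ.le.trans (cm_le _ _)
  have h2 : Q ≤ zpowers x ⊔ (Q ⊓ N(J)) := fun g hg => by
    obtain ⟨u, hu, h2⟩ := d.orbit (h1 hg)
    rw [← mul_inv_cancel_left u g]
    exact mul_mem (mem_sup_left hu) (mem_sup_right ⟨Q.mul_mem (Q.inv_mem (zpowers_le.2 hx hu)) hg, h2⟩)
  have h3 := (H19.card_le h2).trans (Nat.le_of_dvd (mul_pos (H19.card_pos _) (H19.card_pos _))
    (H19.card_sup_dvd ((inf_le_left.trans hQx).trans (cent1_le_norm_zpowers x))))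
  rw [Nat.card_zpowers, h.ord] at h3
  have h4 := d.le_cm_orb (A := Q ⊓ N(J)) (d.le_cm1 (inf_le_left.trans h1)) (inf_le_left.trans hQx)
    inf_le_right
  obtain ⟨R, hR⟩ := exists_syl p (cm p C[y] (orb (zpowers x) J) ⊔ orb' (zpowers x) J)
  refine ⟨R, hR.le.trans (sup_le (cm_anti (le_orb _ _)) (d.pcJ.orb'_le_cm d.hX)), hR.pi, ?_⟩
  have h6 : #(Q ⊓ N(J)) * p ^ 2 ∣ #R := hR.dvd ((hQ.pi.infl _).mul (PiN.prime_pow hp.out 2)) (by
    rw [← card_mul_relIndex le_sup_left]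
    exact mul_dvd_mul (H19.card_dvd h4) d.sq_dvd)
  have h7 := Nat.le_of_dvd (H19.card_pos _) h6
  have := H19.card_pos (Q ⊓ N(J))
  have := hp.out.two_le
  nlinarith

theorem LM.triv_of_center (h : LM p x K) (hQ : Syl p Q (cm p C[x] K)) (hy : y ∈ Z(Q))
    (ho : orderOf y = p) : Triv p K y :=
  (h.dich y (hQ.le hy.1) ho).resolve_right fun ⟨_, d, _, m⟩ =>
    let ⟨R, a, b, c⟩ := diag_big d hQ hy; (m Q hQ R a b).not_gt c

section
variable (h : LM p x K) (d : Diag p x K y J)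
include h d

theorem LM.omega (hQ : Syl p Q (cm p C[x] K)) (hz : z ∈ Z(Q)) (ho : orderOf z = p) :
    z ∈ zpowers x := by
  have key : ∀ Q z, Syl p Q (cm p C[x] K) → y ∈ Q → z ∈ Z(Q) → orderOf z = p → z ∈ zpowers x := by
    intro Q z hQ hy hz ho
    have hx : zpowers x ≤ Z(Q) := zpowers_le.2
      ⟨h.toPr.mem_syl hQ, le_cent1_iff.1 (hQ.le.trans (cm_le _ _))⟩
    have h1 : Z(Q) ≤ cm p C[x] K ⊓ C[y] :=
      le_inf (inf_le_left.trans hQ.le) (inf_le_right.trans (cent_le_cent1 hy))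
    obtain ⟨u, hu, h2⟩ := d.orbit (h1 hz)
    have h3 : u⁻¹ * z ∈ Z(Q) := mul_mem (inv_mem (hx hu)) hz
    by_cases e : u⁻¹ * z = 1
    · rwa [← inv_mul_eq_one.1 e]
    have h4 : orderOf (u⁻¹ * z) = p := orderOf_of_pow hp.out (by
      rw [Commute.mul_pow (mul_comm_of_comm (comm_center Q) (inv_mem (hx hu)) hz),
        (abelem_zpowers (h.ord ▸ pow_orderOf_eq_one x)).2 _ (inv_mem hu), ← ho,
        pow_orderOf_eq_one, one_mul]) e
    exact absurd h2 (d.not_mem_norm (h1 h3) h4 (h.triv_of_center hQ h3 h4))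
  obtain ⟨g, hg, h1⟩ := hQ.sle_cj (zpowers_le.2 d.mem) (pg_zpowers d.ordy)
  have h2 := key _ (g * z * g⁻¹) (hQ.Jmem hg) (zpowers_le.1 h1)
    (by rw [← cj_cent, ← cj_inf]; exact conj_mem_cj.2 hz) (by rw [orderOf_conj', ho])
  rwa [← cj_of_mem_norm (cent1_le_norm_zpowers x (cm_le _ _ hg)), conj_mem_cj] at h2

theorem LM.mem_of_normal (hA : A ⊴ cm p C[x] K) (hd : p ∣ #A) : x ∈ A := by
  obtain ⟨Q, hQ⟩ := exists_syl p (cm p C[x] K)
  have h1 := hQ.inf_normal hA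
  obtain ⟨z, hz, ho⟩ := exists_ord_of_ne_bot (h1.pi.infl _) (h1.pi.meet_cent hQ.pi
    (norms_inf le_normalizer (hQ.le.trans hA.norm)) (h1.sne_bot hp.out hd))
  have h2 := h.omega d hQ ⟨hz.1.1, hz.2⟩ ho
  have h3 := eq_zpowers_of_prime (X := zpowers x) (by rw [Nat.card_zpowers, h.ord]; exact hp.out) h2
    (fun e => hp.out.one_lt.ne (by rw [← ho, e, orderOf_one]))
  exact zpowers_le.2 hz.1.2 (h3 ▸ mem_zpowers x)

theorem LM.smp : Smp p K := by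
  refine PiN.of_not_dvd fun hd => d.nn (d.nJ ?_)
  have h1 := h.mem_of_normal d (A := cm p K K) ⟨h.pc.cm_inf.ge.trans inf_le_right,
    norms_cm le_rfl h.pc.cm_norms h.pc.cm_norms⟩ hd
  simpa only [cent_zpowers, zpowers_le] using h.pc.pg_le_Lp_cent (zpowers_le.2 d.mem)
    (pg_zpowers d.ordy) (pg_zpowers h.ord)
    (by rw [cent_zpowers]; exact zpowers_le.2 ⟨cm_le _ _ h1, d.hx⟩)

theorem LM.normal : C[x] ≤ N(K) := by
  intro g hg
  by_contra hn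
  have h0 := h.pc.Jm hg
  have h1 := h.mem_of_normal d (A := orb' C[x] K) ⟨h.pc.orb'_le_cm le_rfl,
    norms_orb' (le_inf (cm_le _ _) h.pc.cm_norms)⟩ (h0.q.dvd_card.trans (H19.card_dvd
      (cj_le_orb' hg fun e => hn (mem_norm_iff_cj.2 e))))
  have h3 : orb C[x] K ≤ C[x] := (h.pc.orb_le le_rfl).trans (Lp_le _)
  have h4 : x ∈ cm p C[x] (orb C[x] K) := cent_le_cm h3 ⟨mem_cent1_self x, le_cent1_iff.1 h3⟩
  have h2 := h.pc.orb_inf_cm_le (h.smp d) le_rfl ⟨orb'_le_orb h1, h4⟩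
  exact ((Oc_pi _ _).elt h2).not_dvd hp.out rfl h.ord.symm.dvd

theorem LM.syl_of (hW : W ≤ K) (hp' : PG p W) (hH : cm p C[x] K ⊓ C(W) ≤ H) (hH' : H ≤ C[x])
    (hS : Syl p S H) : Syl p (S ⊓ cm p C[x] K) (cm p C[x] K) := by
  have h1 := hS.inf_normal (inf_normal_of_norm
    (norms_cm (p := p) h.pc.le (norms_of_le hH') (hH'.trans (h.normal d))))
  rw [← inf_assoc, inf_right_comm, inf_of_le_left hS.le] at h1
  refine h1.of_idx inf_le_left ?_
  have h2 : cm p C[x] K ≤ O' C[x] ⊔ (cm p C[x] K ⊓ H) := by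
    have h3 := cm_anti (p := p) (H := C[x]) hW
    rw [cm_le_of_pg (hW.trans h.pc.le) hp', sup_comm] at h3
    refine (le_inf h3 le_rfl).trans ?_
    rw [sup_inf_modl (inf_le_left.trans (Oc_norm _ _)) (Oc_le_cm h.pc.le)]
    exact sup_le_sup_left (le_inf inf_le_right
      (le_trans (le_inf inf_le_right (inf_le_left.trans inf_le_right)) hH)) _
  have h3 : O' C[x] ⊔ (cm p C[x] K ⊓ H) = cm p C[x] K :=
    le_antisymm (sup_le (Oc_le_cm h.pc.le) inf_le_left) h2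
  conv => arg 2; arg 2; rw [← h3]
  rw [relIndex_sup_right_of_norm ((inf_le_left.trans (cm_le _ _)).trans (Oc_norm _ _))]
  exact (Oc_pi _ _).relIndex _

theorem LM.no_diag (hs : Smp p J) : False := by
  set D := orb (zpowers x) J with hD
  have hDy : D ≤ C[y] := (d.pcJ.orb_le d.hX).trans (Lp_le _)
  have hDJ : D ≤ N(J) := (d.pcJ.orb_le d.hX).trans d.pcJ.Lp_norms
  have x1 : x ≠ 1 := fun e => d.nn (e ▸ one_mem _)
  have nD : D ⊴ D ⊔ zpowers x := left_normal_sup (norms_orb _ _)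
  obtain ⟨P, hP, hxP⟩ := (pg_zpowers h.ord).exists_syl (le_sup_right : zpowers x ≤ D ⊔ zpowers x)
  have h1 : P ⊓ C[x] < P := by
    refine lt_of_le_of_ne inf_le_left fun e => ?_
    have h1 := (hP.inf_normal nD).inf_normal ⟨le_orb _ _, hDJ⟩
    refine h1.sne_bot hp.out d.pcJ.q.dvd_card (h1.pi.eq_bot (hs.of_le ?_))
    rw [← d.pcJ.cm_inf]
    refine le_inf inf_le_right (le_trans ?_ (d.pcJ.le_cm_of_ne (d.pcJ.Jm d.hx)
      (d.cj_ne (mem_zpowers x) x1).symm))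
    rw [← cj_of_mem_cent (le_cent1_iff.1
      (((inf_le_left.trans inf_le_left).trans e.ge).trans inf_le_right) : x ∈ C(P ⊓ D ⊓ J))]
    exact cj_mono _ inf_le_right
  obtain ⟨a, ⟨haP, haN⟩, ha⟩ := SetLike.exists_of_lt (hP.pi.lt_norm h1)
  have hay : a ∈ C[y] := sup_le hDy d.hX (hP.le haP)
  have hxR : x ∈ P ⊓ C[x] := ⟨zpowers_le.1 hxP, mem_cent1_self x⟩
  have hx' := conj_mem_of_norm haN hxR
  have hw : a * x * a⁻¹ * x⁻¹ ∈ P ⊓ C[x] ⊓ D := ⟨(P ⊓ C[x]).mul_mem hx' ((P ⊓ C[x]).inv_mem hxR),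
    commg_sup_left_le (commg_le_left (norms_orb _ _)) ((comm_iff_der.1 (comm_zpowers x)).le.trans
      bot_le) le_normalizer (norms_orb _ _) (commutator_mem_commutator (hP.le haP) (mem_zpowers x))⟩
  have pW : PG p (P ⊓ C[x] ⊓ D) := (hP.pi.infl _).infl _
  have hW : P ⊓ C[x] ⊓ D ≤ K := by
    have h2 : P ⊓ C[x] ⊓ D ≤ (Lp p (K ⊓ C[y]) ⊔ O' C[y]) ⊓ (C[y] ⊓ C[x]) := le_inf
      ((le_inf inf_le_right (inf_le_left.trans inf_le_right)).trans (d.main.2.2.1.trans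
        (sup_le_sup_left (d.pcJ.orb_inf_cm_le hs d.hX) _)))
      (le_inf (inf_le_right.trans hDy) (inf_le_left.trans inf_le_right))
    rw [sup_inf_assoc_of_le_normalizer (d.ley.trans (Oc_norm _ _)) d.pc1.le] at h2
    have n := (Oc_inf_le inf_le_left).trans d.pc1.Oc_norms
    refine (le_of_pi_of_relIndex (h2.trans (sup_le le_normalizer n)) le_sup_left h2 pW ?_).trans
      d.cov.le
    rw [relIndex_sup_of_norm n]
    exact ((Oc_pi _ _).infl _).relIndex _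
  have haW : cj a (P ⊓ C[x] ⊓ D) = P ⊓ C[x] ⊓ D := by
    rw [cj_inf, cj_of_mem_norm haN, nD.cj_eq (hP.le haP)]
  set H := C[x] ⊓ C[a * x * a⁻¹] with hH
  have hy : y ∈ H := ⟨cm_le _ _ d.mem, mem_cent1_symm.1 (mul_mem (mul_mem hay d.hx) (inv_mem hay))⟩
  obtain ⟨S, hS, hyS⟩ := (pg_zpowers d.ordy).exists_syl (zpowers_le.2 hy)
  have c1 : ∀ c, c ∈ C(P ⊓ C[x] ⊓ D) → (c ∈ C[x] ↔ c ∈ C[a * x * a⁻¹]) := fun c hc => by
    rw [mem_cent1_symm, mem_cent1_symm (y := c), ← inv_mul_cancel_right (a * x * a⁻¹) x,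
      mul_mem_cancel_left (mem_cent1_symm.1 (cent_le_cent1 hw hc))]
  have h2 := h.syl_of d hW pW (H := H)
    (fun c hc => ⟨cm_le _ _ hc.1, (c1 c hc.2).1 (cm_le _ _ hc.1)⟩) inf_le_left hS
  have h3 := h.syl_of d hW pW (H := cj a⁻¹ H) (fun c hc => mem_cj_inv.2 (by
    have e1 : a * c * a⁻¹ ∈ C[a * x * a⁻¹] := by
      rw [← cj_cent1]; exact conj_mem_cj.2 (cm_le _ _ hc.1)
    refine ⟨(c1 _ ?_).2 e1, e1⟩
    rw [← haW, ← cj_cent]; exact conj_mem_cj.2 hc.2))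
    (by rw [cj_le_iff, inv_inv, cj_cent1]; exact inf_le_right) (hS.J a⁻¹)
  have n1 : C[x] ≤ N(cm p C[x] K) := norms_cm h.pc.le le_normalizer (h.normal d)
  have n2 : C[a * x * a⁻¹] ≤ N(cj a (cm p C[x] K)) := by
    rw [← cj_cent1, ← cj_norm]; exact cj_mono _ n1
  have hyD : y ∈ S ⊓ (cm p C[x] K ⊓ cj a (cm p C[x] K)) := ⟨zpowers_le.1 hyS, d.mem,
    mem_cj.2 (by rw [mul_assoc, ← mem_cent1.1 hay, inv_mul_cancel_left]; exact d.mem)⟩
  obtain ⟨z, ⟨⟨hzS, hz1, hz2⟩, hz⟩, ho⟩ := exists_ord_of_ne_bot ((hS.pi.infl _).infl _)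
    ((hS.pi.infl _).meet_cent hS.pi (norms_inf le_normalizer (hS.le.trans (norms_inf
      (inf_le_left.trans n1) (inf_le_right.trans n2))))
      (ne_bot_of_mem hyD fun e => hp.out.one_lt.ne (by rw [← d.ordy, e, orderOf_one])))
  have z1 : z ≠ 1 := fun e => hp.out.one_lt.ne (by rw [← ho, e, orderOf_one])
  have h4 := h.omega d h2 ⟨⟨hzS, hz1⟩, cent_mono inf_le_left hz⟩ ho
  have h5 := h.omega d h3 (z := a⁻¹ * z * a⁻¹⁻¹) ⟨⟨conj_mem_cj.2 hzS,
    by rw [inv_inv]; exact mem_cj.1 hz2⟩, cent_mono inf_le_left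
      (by rw [← cj_cent]; exact conj_mem_cj.2 hz)⟩ (by rw [orderOf_conj', ho])
  have pX : (#(zpowers x)).Prime := by rw [Nat.card_zpowers, h.ord]; exact hp.out
  have h6 := eq_zpowers_of_prime pX h5 (by simpa only [Ne, conj_eq_one_iff] using z1)
  rw [← cj_zpowers, eq_zpowers_of_prime pX h4 z1] at h6
  have h7 : a * x * a⁻¹ * x⁻¹ ∈ zpowers x ⊓ N(J) := ⟨(zpowers x).mul_mem (conj_mem_of_norm
    (inv_mem_iff.1 (mem_norm_iff_cj.2 h6)) (mem_zpowers x)) ((zpowers x).inv_mem (mem_zpowers x)),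
    hDJ hw.2⟩
  rw [zpowers_inf_eq_bot_of_not_mem h.ord d.nn, mem_bot, mul_inv_eq_one, mul_inv_eq_iff_eq_mul] at h7
  exact ha ⟨haP, mem_cent1.2 h7⟩

end

theorem LM.triv (h : LM p x K) (hy : y ∈ cm p C[x] K) (ho : orderOf y = p) : Triv p K y :=
  (h.dich y hy ho).resolve_right fun ⟨_, d, s, _⟩ => h.no_diag d s

end H2.UA
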